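import Cfsg.Agent.H58.ExtField.OrthField

/-!
Quadratic extensions with four coordinates: the overgroups of the orthogonal group over the extension contain `Ω`.
-/

set_option autoImplicit false
set_option linter.unusedSectionVars false
set_option linter.unusedVariables false

namespace Cfsg.Agent.H76.O8

open QuadraticMap hiding sq
open Cfsg.Agent.H5
open Cfsg.Agent.H58.ExtField.Orth

variable {F : Type*} [Field F] [Fintype F] {E : Type*} [Field E] [Fintype E] [Algebra F E]
variable {V : Type*} [AddCommGroup V] [Module F V] [Finite V] [Module E V] [IsScalarTower F E V]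
variable {Q : QuadraticForm F V} {fB : V →ₗ[E] V →ₗ[E] E} {M : Subgroup (orth Q)}

/-- In a quadratic extension a scalar outside the base is moved out of the shift space. -/
theorem exists_far_two (hr : (Module.finrank F E).Prime) (h2 : (2 : F) ≠ 0) (hE : Module.finrank F E = 2) :
    ∃ c : E, ∀ σ : E ≃ₐ[F] E, σ ≠ 1 → σ c - c ∉ shift F E := by
  obtain ⟨c, hc⟩ : ∃ c : E, c ∉ shift F E := SetLike.exists_of_lt (lt_top_iff_ne_top.2 (shift_ne_top hr h2)) |>.imp
    fun c h => h.2
  refine ⟨c, fun σ hσ hmem => hc ?_⟩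
  have hsq : σ * σ = 1 := by
    rw [← pow_two, ← hE, ← IsGalois.card_aut_eq_finrank F E, pow_card_eq_one']
  -- `σ c - c` is negated by `σ`, and every element of the shift space is moved inside the base
  obtain ⟨t, ht⟩ : σ (σ c - c) - (σ c - c) ∈ base F E := mem_shift.1 hmem σ
  rw [map_sub, ← AlgEquiv.mul_apply, hsq, AlgEquiv.one_apply, Algebra.linearMap_apply] at ht
  refine mem_shift.2 fun τ => ?_
  rcases eq_or_ne τ 1 with rfl | hτ
  · simp
  have hts : τ = σ := by
    haveI : Fact (Nat.card (E ≃ₐ[F] E)).Prime := ⟨by rw [IsGalois.card_aut_eq_finrank]; exact hr⟩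
    have hcard : Nat.card (E ≃ₐ[F] E) = 2 := by rw [IsGalois.card_aut_eq_finrank, hE]
    exact ((Nat.card_eq_two_iff' (1 : E ≃ₐ[F] E)).1 hcard).unique hτ hσ
  subst hts
  have h2E : (2 : E) ≠ 0 := by
    rw [← map_ofNat (algebraMap F E) 2]
    exact (map_ne_zero _).2 h2
  refine ⟨-(t / 2), ?_⟩
  rw [Algebra.linearMap_apply, map_neg, map_div₀, map_ofNat, ht]
  field_simp
  ring

/-- The overgroup contains `Ω`. -/
theorem omega_le_small (H : OCtx Q fB M) (h4 : 4 ≤ Module.finrank E V) (hcase : Module.finrank F E = 2 ∨ 5 ≤ Module.finrank E V) : commutator (orth Q) ≤ M := by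
  classical
  haveI : Module.Finite E V := Module.Finite.of_finite
  haveI : Module.Finite F V := Module.Finite.of_finite
  by_contra hno
  obtain ⟨v, hv0, hv, g, hg, hgv, c1, hc1⟩ := H.exists_out h4
  have hvE : ∀ c : E, fB v (c • v) = 0 := fun c => by rw [map_smul, hv, smul_zero]
  set X : Submodule F V := (Submodule.span E {v}).restrictScalars F with hX
  set gl : E →ₗ[F] V := (g.1 : V →ₗ[F] V) ∘ₗ (LinearMap.toSpanSingleton E V v).restrictScalars F
  set β : E →ₗ[F] E := (fB v).restrictScalars F ∘ₗ gl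
  set K : Submodule F E := X.comap gl
  have hgl : ∀ c, gl c = g.1 (c • v) := fun c => rfl
  have hβdef : ∀ c, β c = fB v (g.1 (c • v)) := fun c => rfl
  have hK : ∀ c, c ∈ K ↔ g.1 (c • v) ∈ Submodule.span E {v} := fun c => Iff.rfl
  -- translations
  have key : ∀ c : E, c ∉ shift F E → ∀ k ∈ M, k.1 v = v → k.1 (c • v) ∉ Submodule.span E {v} →
      fB v (k.1 (c • v)) ≠ 0 := by
    intro c hc k hk hkv hout hperp
    obtain ⟨u, huw, huv⟩ := H.exists_dual hout
    have hvu : fB v (-u) = 0 := by
      rw [map_neg, H.fB_comm, huv v (Submodule.mem_span_singleton_self v), neg_zero]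
    have hpv : (rho H v (-u)).1 v = v := by
      rw [H.rho_apply hv hvu, hv, H.fB_comm (-u) v, hvu, mul_zero, zero_smul, zero_smul, sub_zero, sub_zero,
        add_zero]
    have hpw : (rho H v (-u)).1 (k.1 (c • v)) = k.1 (c • v) + v := by
      rw [H.rho_apply hv hvu, hperp, mul_zero, zero_smul, zero_smul, sub_zero, add_zero, map_neg,
        LinearMap.neg_apply, huw, neg_smul, one_smul, sub_neg_eq_add]
    have hc' : c ∉ Set.range (algebraMap F E) := fun h => hc (base_le_shift h)
    have hc1' : c + 1 ∉ Set.range (algebraMap F E) := fun ⟨t, ht⟩ =>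
      hc' ⟨t - 1, by rw [map_sub, map_one, ht, add_sub_cancel_right]⟩
    obtain ⟨A, hA⟩ := H.conj_aut hno hv0 hv hc' hc1'
      (h := k⁻¹ * (rho H v (-u) * k)) (mul_mem (inv_mem hk) (mul_mem (H.rho_mem _ _) hk))
      (by
        rw [orth_mul_apply, orth_mul_apply, hkv, hpv]
        conv_lhs => rw [← hkv, orth_inv_apply_apply])
      (by
        rw [orth_mul_apply, orth_mul_apply, hpw]
        conv_lhs => arg 2; arg 2; rw [← hkv]
        rw [← map_add k.1, orth_inv_apply_apply, add_smul, one_smul])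
    exact shift_good H.prime hc A hA
  have hshift := shift_ne_top (F := F) (E := E) H.prime H.two
  by_cases hker : LinearMap.ker β = ⊤
  · have hKtop : K ≠ ⊤ := fun h => hc1 ((hK c1).1 (h ▸ Submodule.mem_top))
    obtain ⟨c, hcK, hcS⟩ := exists_not_mem_two hKtop hshift
    exact key c hcS g hg hgv (fun h => hcK ((hK c).2 h))
      ((hβdef c).symm.trans (LinearMap.mem_ker.1 (hker ▸ Submodule.mem_top)))
  -- the space of displacements
  let φ1 : V →ₗ[F] E := (fB v).restrictScalars F
  let φ2 : V →ₗ[F] E := (fB v).restrictScalars F ∘ₗ ((g⁻¹).1 : V →ₗ[F] V)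
  set D0 : Submodule F V := LinearMap.ker (φ1.prod φ2)
  have hD0 : ∀ {d}, d ∈ D0 → fB v d = 0 ∧ fB v ((g⁻¹).1 d) = 0 := fun {d} hd => by
    simpa [D0, φ1, φ2] using hd
  have hn : Module.finrank F V = Module.finrank F E * Module.finrank E V :=
    (Module.finrank_mul_finrank F E V).symm
  have hdim0 : Module.finrank F V + 1 ≤ Module.finrank F D0 + 2 * Module.finrank F E := by
    have hrk := (φ1.prod φ2).finrank_range_add_finrank_ker
    have hne : LinearMap.range (φ1.prod φ2) ≠ ⊤ := by
      intro htop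
      obtain ⟨t, ht⟩ := Algebra.trace_surjective F E (1 : F)
      obtain ⟨z, hz⟩ : ((t, 0) : E × E) ∈ LinearMap.range (φ1.prod φ2) := htop ▸ Submodule.mem_top
      rw [LinearMap.prod_apply, Function.prod_apply, Prod.mk.injEq] at hz
      have e1 : polar Q v z = 1 := by rw [H.polar_eq, show fB v z = t from hz.1, ht]
      have e2 : polar Q v ((g⁻¹).1 z) = 0 := by
        rw [H.polar_eq, show fB v ((g⁻¹).1 z) = 0 from hz.2, map_zero]
      rw [← orth_polar g, hgv, orth_apply_inv_apply, e1] at e2
      exact one_ne_zero e2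
    have := Submodule.finrank_lt hne
    rw [Module.finrank_prod] at this
    show _ ≤ Module.finrank F (LinearMap.ker (φ1.prod φ2)) + _
    omega
  -- a solution in a large subspace
  have solve : ∀ (c : E) (D : Submodule F V), D ≤ D0 → 2 * Module.finrank F E < Module.finrank F D →
      ∃ d ∈ D, d ≠ 0 ∧ fB d d + 2 * fB (g.1 (c • v)) d = 0 := by
    intro c D _ hD
    let B : D →ₗ[F] D →ₗ[F] E := LinearMap.mk₂ F (fun x y => fB (x : V) (y : V))
      (fun x x' y => by simp) (fun t x y => by simp [LinearMap.map_smul_of_tower])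
      (fun x y y' => by simp) (fun t x y => by simp [LinearMap.map_smul_of_tower])
    let L : D →ₗ[F] E := ((2 : E) • fB (g.1 (c • v))).restrictScalars F ∘ₗ D.subtype
    obtain ⟨d, hd, he⟩ := exists_ne_zero_of_quadratic B L hD
    exact ⟨d, d.2, fun h => hd (Subtype.ext h), he⟩
  -- moving by a solution
  have move : ∀ c : E, β c ≠ 0 → ∀ d ∈ D0, fB d d + 2 * fB (g.1 (c • v)) d = 0 →
      ∃ k ∈ M, k.1 v = v ∧ k.1 (c • v) = c • v + (g⁻¹).1 d ∧ fB v (k.1 (c • v)) = 0 := by
    intro c hb d hd heq
    obtain ⟨hd1, hd2⟩ := hD0 hd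
    set u := (β c)⁻¹ • d
    have hvu : fB v u = 0 := by rw [map_smul, hd1, smul_zero]
    have hw : (rho H v u).1 (g.1 (c • v)) = g.1 (c • v) + d := by
      rw [H.rho_apply hv hvu, ← hβdef, smul_inv_smul₀ hb, sub_sub, ← add_smul, sub_eq_self]
      refine (smul_eq_zero.2 (Or.inl ?_))
      rw [H.fB_comm (g.1 (c • v)) d] at heq
      simp only [u, QuadraticMap.map_smul, map_smul, LinearMap.smul_apply, smul_eq_mul, qf_apply]
      have := H.twoE
      field_simp
      linear_combination heq
    have hpv : (rho H v u).1 v = v := by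
      rw [H.rho_apply hv hvu, hv, H.fB_comm u v, hvu, mul_zero, zero_smul, zero_smul, sub_zero, sub_zero, add_zero]
    refine ⟨g⁻¹ * (rho H v u * g), mul_mem (inv_mem hg) (mul_mem (H.rho_mem _ _) hg), ?_, ?_, ?_⟩
    · rw [orth_mul_apply, orth_mul_apply, hgv, hpv]
      conv_lhs => rw [← hgv, orth_inv_apply_apply]
    · rw [orth_mul_apply, orth_mul_apply, hw, map_add, orth_inv_apply_apply]
    · rw [orth_mul_apply, orth_mul_apply, hw, map_add, orth_inv_apply_apply, map_add, hvE, hd2, add_zero]
  have addline : ∀ (c : E) (x : V), c • v + x ∈ Submodule.span E {v} → x ∈ Submodule.span E {v} :=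
    fun c x h => by
      have := Submodule.sub_mem _ h (Submodule.smul_mem _ c (Submodule.mem_span_singleton_self v))
      rwa [add_sub_cancel_left] at this
  by_cases ha5 : 5 ≤ Module.finrank E V
  · obtain ⟨c, hcb, hcS⟩ := exists_not_mem_two hker hshift
    obtain ⟨C, hC⟩ := (X.map (g.1 : V →ₗ[F] V)).exists_isCompl
    have hdimX : Module.finrank F (X.map (g.1 : V →ₗ[F] V)) ≤ Module.finrank F E := by
      refine (Submodule.finrank_map_le _ _).trans ?_
      have hle : X ≤ LinearMap.range ((LinearMap.toSpanSingleton E V v).restrictScalars F) := by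
        intro x hx
        obtain ⟨e, rfl⟩ := Submodule.mem_span_singleton.1 (show x ∈ Submodule.span E {v} from hx)
        exact ⟨e, rfl⟩
      exact (Submodule.finrank_mono hle).trans (LinearMap.finrank_range_le _)
    have hdim : 2 * Module.finrank F E < Module.finrank F ↥(D0 ⊓ C) := by
      have h1 := Submodule.finrank_sup_add_finrank_inf_eq D0 C
      have h2 := Submodule.finrank_add_eq_of_isCompl hC
      have h3 := Submodule.finrank_le (D0 ⊔ C)
      have := Nat.mul_le_mul_left (Module.finrank F E) ha5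
      omega
    obtain ⟨d, hd, hd0, heq⟩ := solve c _ inf_le_left hdim
    obtain ⟨k, hk, hkv, hkc, hkp⟩ := move c (fun h => hcb (LinearMap.mem_ker.2 h)) d hd.1 heq
    refine key c hcS k hk hkv ?_ hkp
    rw [hkc]
    intro hmem
    have hdX : d ∈ X.map (g.1 : V →ₗ[F] V) :=
      ⟨(g⁻¹).1 d, addline c _ hmem, orth_apply_inv_apply g d⟩
    exact hd0 ((Submodule.disjoint_def.1 hC.disjoint) d hdX hd.2)
  have hr2 := hcase.resolve_right ha5
  have ha4 := h4
  have hdim : 2 * Module.finrank F E < Module.finrank F D0 := by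
    have := Nat.mul_le_mul_left (Module.finrank F E) ha4
    omega
  by_cases hkK : LinearMap.ker β ≤ K
  · obtain ⟨c, hcb, hcS⟩ := exists_not_mem_two hker hshift
    have hb : β c ≠ 0 := fun h => hcb (LinearMap.mem_ker.2 h)
    obtain ⟨d, hd, hd0, heq⟩ := solve c D0 le_rfl hdim
    obtain ⟨k, hk, hkv, hkc, hkp⟩ := move c hb d hd heq
    refine key c hcS k hk hkv ?_ hkp
    rw [hkc]
    intro hmem
    obtain ⟨e, he⟩ := Submodule.mem_span_singleton.1 (addline c _ hmem)
    have hde : g.1 (e • v) = d := by rw [he, orth_apply_inv_apply]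
    have heK := hkK (show e ∈ LinearMap.ker β by rw [LinearMap.mem_ker, hβdef, hde, (hD0 hd).1])
    obtain ⟨δ, hδ⟩ := Submodule.mem_span_singleton.1 ((hK e).1 heK)
    rw [hde] at hδ
    refine hd0 ?_
    rw [← hδ] at heq ⊢
    simp only [map_smul, LinearMap.smul_apply, smul_eq_mul, hv, mul_zero, zero_add, H.fB_comm (g.1 (c • v)) v,
      ← hβdef, mul_eq_zero, H.twoE, hb, false_or, or_false] at heq
    rw [heq, zero_smul]
  obtain ⟨c2, hc2b, hc2K⟩ := SetLike.not_le_iff_exists.1 hkK
  by_cases hgood : ∃ c ∈ LinearMap.ker β, c ∉ K ∧ c ∉ shift F E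
  · obtain ⟨c, hcb, hcK, hcS⟩ := hgood
    exact key c hcS g hg hgv (fun h => hcK ((hK c).2 h)) ((hβdef c).symm.trans (LinearMap.mem_ker.1 hcb))
  push Not at hgood
  have hkS : LinearMap.ker β ≤ shift F E := fun x hx => by
    by_cases hxK : x ∈ K
    · have h1 : x + c2 ∉ K := fun h => hc2K (by have := K.sub_mem h hxK; rwa [add_sub_cancel_left] at this)
      have := Submodule.sub_mem _ (hgood _ (add_mem hx hc2b) h1) (hgood _ hc2b hc2K)
      rwa [add_sub_cancel_right] at this
    · exact hgood x hx hxK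
  have hq : 3 ≤ Fintype.card F := by
    have h1 : 1 < Fintype.card F := Fintype.one_lt_card
    by_contra h
    refine H.two ?_
    have h2 : Fintype.card F = 2 := by omega
    have := FiniteField.cast_card_eq_zero F
    rwa [h2] at this
  obtain ⟨c, hc⟩ := exists_far_two (F := F) (E := E) H.prime H.two hr2
  obtain ⟨σ, hσ⟩ := exists_aut_ne_one (F := F) (E := E) H.prime
  have hcS : c ∉ shift F E := fun h => hc σ hσ (base_le_shift (mem_shift.1 h σ))
  have hb : β c ≠ 0 := fun h => hcS (hkS (LinearMap.mem_ker.2 h))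
  obtain ⟨d, hd, hd0, heq⟩ := solve c D0 le_rfl hdim
  obtain ⟨k, hk, hkv, hkc, hkp⟩ := move c hb d hd heq
  by_cases hmem : k.1 (c • v) ∈ Submodule.span E {v}
  swap
  · exact key c hcS k hk hkv hmem hkp
  rw [hkc] at hmem
  obtain ⟨e, he⟩ := Submodule.mem_span_singleton.1 (addline c _ hmem)
  have hde : g.1 (e • v) = d := by rw [he, orth_apply_inv_apply]
  have heS : e ∈ shift F E := hkS (by rw [LinearMap.mem_ker, hβdef, hde, (hD0 hd).1])
  rw [← he, ← add_smul] at hkc
  have hce : c + e ∉ Set.range (algebraMap F E) := fun h => hcS (by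
    have := Submodule.sub_mem _ (base_le_shift h) heS
    rwa [add_sub_cancel_right] at this)
  obtain ⟨A, hA⟩ := H.conj_aut hno hv0 hv (fun h => hcS (base_le_shift h)) hce hk hkv hkc
  let A' : E ≃ₐ[F] E := AlgEquiv.ofBijective A ⟨A.injective, Finite.injective_iff_surjective.1 A.injective⟩
  have hA' : A' c = c + e := hA
  by_cases h1 : A' = 1
  · rw [h1, AlgEquiv.one_apply, left_eq_add] at hA'
    exact hd0 (by rw [← hde, hA', zero_smul, map_zero])
  · refine hc A' h1 ?_
    rw [hA', add_sub_cancel_left]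
    exact heS

end Cfsg.Agent.H76.O8
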