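import Cfsg.Agent.H5.StabNondeg
import Cfsg.Agent.H5.StabVector
import Cfsg.Agent.H98.SingPair

/-!
The stabiliser of a non-degenerate four-space of plus type generates `Ω` with any further element.
-/

set_option autoImplicit false

namespace Cfsg.Agent.H76.O8

open Cfsg.Agent.H5
open QuadraticMap hiding sq

variable {F V : Type*} [Field F] [AddCommGroup V] [Module F V] {Q : QuadraticForm F V}
variable [FiniteDimensional F V] (hQ : (polarBilin Q).Nondegenerate) {W : Submodule F V}
  (hWU : W ⊓ perp Q W = ⊥)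
variable [Finite F] [Finite V] {M : Subgroup (orth Q)}
  (hM : ∀ g ∈ commutator (orth Q), Preserves W g → g ∈ M) (hn : 5 ≤ Module.finrank F V)

/-- Every vector of `S` has a singular vector of `S` orthogonal to it and off its line. -/
def PlusFour (Q : QuadraticForm F V) (S : Submodule F V) : Prop :=
  ∀ v ∈ S, ∃ e ∈ S, Q e = 0 ∧ polar Q v e = 0 ∧ e ∉ Submodule.span F {v}

omit [Finite F] [Finite V] in
theorem PlusFour.ne_zero {S : Submodule F V} (hS : PlusFour Q S) {v : V} (hv : v ∈ S) :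
    ∃ e ∈ S, Q e = 0 ∧ polar Q v e = 0 ∧ e ∉ Submodule.span F {v} ∧ e ≠ 0 := by
  obtain ⟨e, he, hq, hp, hn⟩ := hS v hv
  exact ⟨e, he, hq, hp, hn, fun h => hn (h ▸ Submodule.zero_mem _)⟩

/-- A totally singular plane gives the property. -/
theorem plusFour_of_plane {S T : Submodule F V} (hTS : T ≤ S) (hT : ∀ t ∈ T, Q t = 0)
    (hT2 : Module.finrank F T = 2) : PlusFour Q S := by
  intro v _
  by_cases hv : T ≤ perp Q (Submodule.span F {v})
  · obtain ⟨e, he, hn⟩ : ∃ e ∈ T, e ∉ Submodule.span F {v} := SetLike.not_le_iff_exists.1 fun hle => by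
      have h1 := Submodule.finrank_mono hle
      have h2 : Module.finrank F (Submodule.span F {v}) ≤ 1 := by
        simpa using finrank_span_le_card ({v} : Set V)
      omega
    exact ⟨e, hTS he, hT e he, mem_perp_span.1 (hv he), hn⟩
  · obtain ⟨t, ht, htv⟩ := SetLike.not_le_iff_exists.1 hv
    rw [mem_perp_span] at htv
    have hrk := ((polarBilin Q v).domRestrict T).finrank_range_add_finrank_ker
    have h1 := Submodule.finrank_le (LinearMap.range ((polarBilin Q v).domRestrict T))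
    rw [Module.finrank_self] at h1
    obtain ⟨⟨e, heT⟩, he, he0⟩ := Submodule.exists_mem_ne_zero_of_ne_bot
      (p := LinearMap.ker ((polarBilin Q v).domRestrict T)) fun h => by rw [h, finrank_bot] at hrk; omega
    refine ⟨e, hTS heT, hT e heT, by simpa using he, fun hm => ?_⟩
    obtain ⟨c, rfl⟩ := Submodule.mem_span_singleton.1 hm
    have hc : c ≠ 0 := by
      rintro rfl
      exact he0 (Subtype.ext (zero_smul F v))
    have hvT : v ∈ T := (Submodule.smul_mem_iff T hc).1 heT
    refine htv ?_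
    rw [show polar Q v t = Q (v + t) - Q v - Q t from rfl, hT _ (add_mem hvT ht), hT _ hvT, hT _ ht]
    simp

include hQ hWU hM hn in
/-- A root element of a singular mixed point of the image yields one of a point of `W`. -/
theorem cross_of_singular_part (h4 : Module.finrank F W = 4) (hplus : PlusFour Q W)
    {g : orth Q} (hg : g ∈ M) {p pw pu : V} (hp : Q p = 0) (hpw : pw ∈ W) (hpu : pu ∈ perp Q W)
    (hpe : p = pw + pu) (hpG : p ∈ W.map ((g : V ≃ₗ[F] V) : V →ₗ[F] V)) (hpw0 : pw ≠ 0) (hpu0 : pu ≠ 0)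
    (hex : Q pw = 0 ∨ (2 : F) ≠ 0 ∨ ∃ b, b ∈ W.map ((g : V ≃ₗ[F] V) : V →ₗ[F] V) ∧ polar Q p b = 0 ∧
      b ∉ Submodule.span F {p} ⊔ Submodule.span F {pu} ∧
      ∀ bw ∈ W, ∀ bu ∈ perp Q W, b = bw + bu → bw ∉ Submodule.span F {pw} → polar Q pw bw ≠ 1) :
    ∃ e ∈ W, e ≠ 0 ∧ ∃ c ∈ perp Q W, c ≠ 0 ∧ RootIn M e c := by
  set G := W.map ((g : V ≃ₗ[F] V) : V →ₗ[F] V) with hGdef
  have hmG : ∀ {x}, x ∈ G → ∃ y ∈ W, (g : V ≃ₗ[F] V) y = x := fun hx => hx
  have hrootG : ∀ p b, Q p = 0 → polar Q p b = 0 → p ∈ G → b ∈ G → RootIn M p b := by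
    intro p b hp hpb hpG hbG
    obtain ⟨p', hp', rfl⟩ := hmG hpG
    obtain ⟨b', hb', rfl⟩ := hmG hbG
    rw [orth_map] at hp; rw [orth_polar] at hpb
    exact (rootIn_both hQ hM hn hp hpb (Or.inl ⟨hp', hb'⟩)).conj hg
  have h1' : ∀ z : V, Module.finrank F (Submodule.span F {z}) ≤ 1 := fun z => by
    simpa using finrank_span_le_card ({z} : Set V)
  have hpu' : ∀ {a}, a ∈ W → polar Q pu a = 0 := fun ha => by
    rw [polar_comm]; exact mem_perp.1 hpu _ ha
  have hqpu : Q pu = -Q pw := by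
    rw [hpe, QuadraticMap.map_add (⇑Q), polar_comm (⇑Q) pw pu, hpu' hpw] at hp
    linear_combination hp
  -- conjugating by elements of the stabiliser of `p`
  have move : ∀ bw bu e s, bw ∈ W → bu ∈ perp Q W → RootIn M p (bw + bu) → e ∈ W → s ∈ W → Q e = 0 →
      polar Q e s = 0 → polar Q pw e = 0 → polar Q pw s = 0 →
      RootIn M p (polar Q e bw • s - (polar Q s bw + Q s * polar Q e bw) • e) := by
    intro bw bu e s hbw hbu hx he hs hqe hes hep hps
    have hr' := rootIn_both hQ hM hn hqe hes (Or.inl ⟨he, hs⟩)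
    have h := hx.conj hr'.2.2
    have hfixp : (eich Q e s : V ≃ₗ[F] V) p = p :=
      eich_fix hqe hes (by rw [hpe, polar_add_right, polar_comm (⇑Q) e pw, hep, mem_perp.1 hpu e he, add_zero])
        (by rw [hpe, polar_add_right, polar_comm (⇑Q) s pw, hps, mem_perp.1 hpu s hs, add_zero])
    rw [hfixp, eich_apply hqe hes, polar_add_right, polar_add_right, mem_perp.1 hbu e he,
      mem_perp.1 hbu s hs, add_zero, add_zero] at h
    replace h := h.sub hx
    convert h using 1
    module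
  -- a singular vector of `W` inside the root group of `p`
  have hsingular : ∀ d ∈ W, d ≠ 0 → Q d = 0 → polar Q pw d = 0 → RootIn M p d →
      ∃ e ∈ W, e ≠ 0 ∧ ∃ c ∈ perp Q W, c ≠ 0 ∧ RootIn M e c := by
    intro d hd hd0 hqd hpd hr
    refine ⟨d, hd, hd0, -pu, Submodule.neg_mem _ hpu, neg_ne_zero.2 hpu0, ?_⟩
    have h3 := (H98.SingPair.rootIn_symm hr hqd).add
      (rootIn_both hQ hM hn hqd (by rw [polar_comm]; exact hpd) (Or.inl ⟨hd, hpw⟩))
    convert h3 using 1
    rw [hpe]; module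
  have haux : ∀ e ∈ W, pw ∉ Submodule.span F {e} → ∃ a ∈ W, polar Q e a = 0 ∧ polar Q pw a = 1 := by
    intro e he hne
    obtain ⟨z₀, hz₀, hz₀e, hz₀p⟩ := exists_detect hQ hWU
      ((Submodule.span_singleton_le_iff_mem _ _).2 he) hpw hne
    exact ⟨(polar Q pw z₀)⁻¹ • z₀, W.smul_mem _ hz₀,
      by rw [polar_smul_right, mem_perp_span.1 hz₀e, smul_zero],
      by rw [polar_smul_right, smul_eq_mul, inv_mul_cancel₀ hz₀p]⟩
  -- the vector of the image
  obtain ⟨b, hbG, hbp, hbn, hπ⟩ : ∃ b, b ∈ G ∧ polar Q p b = 0 ∧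
      b ∉ Submodule.span F {p} ⊔ Submodule.span F {pu} ∧
      (Q pw = 0 ∨ (2 : F) ≠ 0 ∨ ∀ bw ∈ W, ∀ bu ∈ perp Q W, b = bw + bu → bw ∉ Submodule.span F {pw} →
        polar Q pw bw ≠ 1) := by
    rcases hex with h | h | ⟨b, h1, h2, h3, h4⟩
    rotate_left 2
    · exact ⟨b, h1, h2, h3, Or.inr (Or.inr h4)⟩
    all_goals
      obtain ⟨b, ⟨hbG, hbp⟩, hbn⟩ : ∃ b ∈ G ⊓ perp Q (Submodule.span F {p}),
          b ∉ Submodule.span F {p} ⊔ Submodule.span F {pu} := by
        refine SetLike.not_le_iff_exists.1 fun hle => ?_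
        have hGdim : Module.finrank F G = Module.finrank F W := (g : V ≃ₗ[F] V).finrank_map_eq W
        have h1 := Submodule.finrank_mono hle
        have h2 : Module.finrank F ↥(Submodule.span F {p} ⊔ Submodule.span F {pu}) ≤ 2 := by
          refine (Submodule.finrank_add_le_finrank_add_finrank _ _).trans ?_
          have := h1' p; have := h1' pu; omega
        have h3 := Submodule.finrank_sup_add_finrank_inf_eq G (perp Q (Submodule.span F {p}))
        have h5' : Module.finrank F ↥(G ⊔ perp Q (Submodule.span F {p})) ≤ Module.finrank F V :=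
          Submodule.finrank_le _
        have h6 := finrank_perp_add hQ (Submodule.span F {p})
        have h7 := h1' p
        omega
      rw [SetLike.mem_coe, mem_perp_span] at hbp
    · exact ⟨b, hbG, hbp, hbn, Or.inl h⟩
    · exact ⟨b, hbG, hbp, hbn, Or.inr (Or.inl h)⟩
  obtain ⟨bw, hbw, bu, hbu, rfl⟩ := exists_split hQ hWU b
  have hx := hrootG p (bw + bu) hp hbp hpG hbG
  obtain ⟨x₀, hx₀, hqx₀, hpx₀, hx₀n, hx₀0⟩ := hplus.ne_zero hpw
  by_cases hdep : bw ∈ Submodule.span F {pw}
  · obtain ⟨l, rfl⟩ := Submodule.mem_span_singleton.1 hdep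
    set u := bu - l • pu with hu
    have huU : u ∈ perp Q W := sub_mem hbu (Submodule.smul_mem _ _ hpu)
    have hue : u = (l • pw + bu) - l • p := by simp only [u, hpe, smul_add]; abel
    have hun : u ∉ Submodule.span F {pu} := fun hm => hbn (by
      have : l • pw + bu = l • p + u := by rw [hue]; abel
      rw [this]
      exact add_mem (Submodule.mem_sup_left (Submodule.smul_mem _ _ (Submodule.mem_span_singleton_self p)))
        (Submodule.mem_sup_right hm))
    have hr : RootIn M p u := by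
      refine hrootG p u hp ?_ hpG (hue ▸ sub_mem hbG (Submodule.smul_mem _ _ hpG))
      rw [hue, polar_sub_right, hbp, polar_smul_right, polar_self', hp, mul_zero, smul_zero, sub_zero]
    obtain ⟨a, ha, hea, hpa⟩ := haux x₀ hx₀ fun hm => by
      obtain ⟨t, ht⟩ := Submodule.mem_span_singleton.1 hm
      have ht0 : t ≠ 0 := by rintro rfl; rw [zero_smul] at ht; exact hpw0 ht.symm
      exact hx₀n (Submodule.mem_span_singleton.2 ⟨t⁻¹, by rw [← ht, inv_smul_smul₀ ht0]⟩)
    have hr' := rootIn_both hQ hM hn hqx₀ hea (Or.inl ⟨hx₀, ha⟩)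
    have h := hr'.conj hr.2.2
    have hpa' : polar Q p a = 1 := by rw [hpe, polar_add_left, hpa, hpu' ha, add_zero]
    have hua : polar Q u a = 0 := by rw [polar_comm]; exact mem_perp.1 huU a ha
    rw [eich_fix hp hr.2.1 (by rw [hpe, polar_add_left, hpx₀, hpu' hx₀, add_zero])
      (by rw [polar_comm]; exact mem_perp.1 huU x₀ hx₀), eich_apply hp hr.2.1, hpa', hua] at h
    have h' := (h.sub hr').add (rootIn_both hQ hM hn hqx₀ (a := Q u • pw)
      (by rw [polar_smul_right, polar_comm, hpx₀, smul_zero]) (Or.inl ⟨hx₀, W.smul_mem _ hpw⟩))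
    refine ⟨x₀, hx₀, hx₀0, u - Q u • pu, sub_mem huU (Submodule.smul_mem _ _ hpu), fun h0 => hun ?_, ?_⟩
    · rw [sub_eq_zero.1 h0]
      exact Submodule.smul_mem _ _ (Submodule.mem_span_singleton_self pu)
    · convert h' using 1
      rw [hpe]; simp only [mul_one, one_smul]; module
  -- a singular vector of `W` orthogonal to `pw` but not to `bw`
  obtain ⟨e, ⟨heW, hep⟩, hqe, hbe⟩ : ∃ e, e ∈ W ⊓ perp Q (Submodule.span F {pw}) ∧ Q e = 0 ∧ polar Q bw e ≠ 0 := by
    obtain ⟨z, hz, hzp, hzb⟩ := exists_detect hQ hWU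
      ((Submodule.span_singleton_le_iff_mem _ _).2 hpw) hbw hdep
    obtain ⟨z₁, hz₁, hz₁p, hz₁x⟩ := exists_detect hQ hWU
      ((Submodule.span_singleton_le_iff_mem _ _).2 hpw) hx₀ hx₀n
    have hzz : polar Q x₀ ((polar Q x₀ z₁)⁻¹ • z₁) = 1 := by
      rw [polar_smul_right, smul_eq_mul, inv_mul_cancel₀ hz₁x]
    have hxS : x₀ ∈ W ⊓ perp Q (Submodule.span F {pw}) := ⟨hx₀, mem_perp_span.2 hpx₀⟩
    have hzS : z₁ ∈ W ⊓ perp Q (Submodule.span F {pw}) := ⟨hz₁, hz₁p⟩
    obtain ⟨e, he, hqe, hbe⟩ := exists_singular_polar_ne_of_pair (hypPair_of_polar hqx₀ hzz) hxS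
      (add_mem (Submodule.smul_mem _ _ hzS) (Submodule.smul_mem _ _ hxS)) ⟨z, ⟨hz, hzp⟩, hzb⟩
    exact ⟨e, he, hqe, hbe⟩
  rw [SetLike.mem_coe, mem_perp_span] at hep
  have hβ : polar Q e bw ≠ 0 := by rwa [polar_comm]
  have he0 : e ≠ 0 := fun h => hbe (by rw [h, polar_zero_right])
  by_cases hc : Q pw = 0
  · have hpp : polar Q pw pw = 0 := by rw [polar_self', hc, mul_zero]
    by_cases hb0 : polar Q pw bw = 0
    · have h := move bw bu e pw hbw hbu hx heW hpw hqe (by rw [polar_comm]; exact hep) hep hpp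
      rw [hb0, hc, zero_mul, add_zero, zero_smul, sub_zero] at h
      refine hsingular _ (W.smul_mem _ hpw) (smul_ne_zero hβ hpw0) ?_ ?_ h
      · rw [QuadraticMap.map_smul, hc, smul_zero]
      · rw [polar_smul_right, hpp, smul_zero]
    · have h := move bw bu pw x₀ hbw hbu hx hpw hx₀ hc hpx₀ hpp hpx₀
      refine hsingular _ (sub_mem (W.smul_mem _ hx₀) (W.smul_mem _ hpw)) (fun h0 => hx₀n ?_) ?_ ?_ h
      · refine (Submodule.smul_mem_iff _ hb0).1 ?_
        rw [sub_eq_zero.1 h0]
        exact Submodule.smul_mem _ _ (Submodule.mem_span_singleton_self pw)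
      · rw [Cfsg.Agent.H5.map_sub', QuadraticMap.map_smul, QuadraticMap.map_smul, polar_smul_left, polar_smul_right, hqx₀, hc,
          polar_comm (⇑Q) x₀ pw, hpx₀]
        simp
      · rw [polar_sub_right, polar_smul_right, polar_smul_right, hpx₀, hpp, smul_zero, smul_zero, sub_zero]
  by_cases h2 : (2 : F) = 0
  · -- in characteristic two a multiple of `pw` is already there
    have hpp : polar Q pw pw = 0 := by rw [polar_self', h2, zero_mul]
    have hpa : polar Q p ((Q pw)⁻¹ • pw) = 0 := by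
      rw [polar_smul_right, hpe, polar_add_left, hpp, hpu' hpw, add_zero, smul_zero]
    have r0 : RootIn M p ((Q pw)⁻¹ • pw) := by
      refine ⟨hp, hpa, hM _ (eich_mem_commutator hQ hn _ _) fun x hx => ?_⟩
      rw [eich_apply hp hpa, hpe, polar_add_left, hpu' hx, add_zero, polar_smul_left, QuadraticMap.map_smul]
      have key : x + polar Q pw x • (Q pw)⁻¹ • pw - ((Q pw)⁻¹ * polar Q pw x) • (pw + pu) -
          ((((Q pw)⁻¹ * (Q pw)⁻¹) • Q pw) * polar Q pw x) • (pw + pu) =
          x - ((Q pw)⁻¹ * polar Q pw x) • pw - (2 * ((Q pw)⁻¹ * polar Q pw x)) • pu := by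
        simp only [smul_eq_mul]
        rw [mul_assoc (Q pw)⁻¹, inv_mul_cancel₀ hc, mul_one]
        module
      simp only [smul_eq_mul] at key ⊢
      rw [key, h2, zero_mul, zero_smul, sub_zero]
      exact sub_mem hx (W.smul_mem _ hpw)
    have hne1 : polar Q pw bw ≠ 1 := by
      rcases hπ with h | h | h
      · exact absurd h hc
      · exact absurd h2 h
      · exact h bw hbw bu hbu rfl hdep
    have h := move bw bu e (((Q pw)⁻¹ * (polar Q e bw)⁻¹) • pw) hbw hbu hx heW (W.smul_mem _ hpw) hqe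
      (by rw [polar_smul_right, polar_comm (⇑Q) e pw, hep, smul_zero]) hep (by rw [polar_smul_right, hpp, smul_zero])
    have h' := h.sub r0
    set k := (Q pw)⁻¹ * (polar Q e bw)⁻¹ * (polar Q pw bw + 1)
    have hk : k ≠ 0 := mul_ne_zero (mul_ne_zero (inv_ne_zero hc) (inv_ne_zero hβ)) fun h0 => hne1 (by
      linear_combination h0 - h2)
    refine hsingular ((-k) • e) (W.smul_mem _ heW) (smul_ne_zero (neg_ne_zero.2 hk) he0) ?_ ?_ ?_
    · rw [QuadraticMap.map_smul, hqe, smul_zero]
    · rw [polar_smul_right, hep, smul_zero]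
    · convert h' using 1
      rw [polar_smul_left, QuadraticMap.map_smul]
      simp only [k, smul_eq_mul]
      match_scalars <;> field_simp <;> ring
  · obtain ⟨s, ⟨hsW, hsp⟩, hsn⟩ : ∃ s ∈ W ⊓ perp Q (Submodule.span F {e} ⊔ Submodule.span F {pw}),
        s ∉ Submodule.span F {e} := by
      refine SetLike.not_le_iff_exists.1 fun hle => ?_
      have h1 := Submodule.finrank_mono hle
      have h2' := Submodule.finrank_sup_add_finrank_inf_eq W (perp Q (Submodule.span F {e} ⊔ Submodule.span F {pw}))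
      have h3 := Submodule.finrank_le (W ⊔ perp Q (Submodule.span F {e} ⊔ Submodule.span F {pw}))
      have h4' := finrank_perp_add hQ (Submodule.span F {e} ⊔ Submodule.span F {pw})
      have h5 := finrank_span_pair_le (F := F) e pw
      have := h1' e
      omega
    rw [SetLike.mem_coe, perp_sup, Submodule.mem_inf, mem_perp_span, mem_perp_span] at hsp
    obtain ⟨hes, hps⟩ := hsp
    have hqs : Q s ≠ 0 := by
      intro hqs
      -- otherwise `e`, `s`, `pw` span too much of `W`
      obtain ⟨z, hz, hzK, hze⟩ := exists_detect hQ hWU ((Submodule.span_singleton_le_iff_mem _ _).2 hsW) heW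
        fun hm => by
          obtain ⟨t, ht⟩ := Submodule.mem_span_singleton.1 hm
          rcases eq_or_ne t 0 with rfl | ht0
          · exact he0 (by rw [← ht, zero_smul])
          · exact hsn (Submodule.mem_span_singleton.2 ⟨t⁻¹, by rw [← ht, inv_smul_smul₀ ht0]⟩)
      have hind : LinearIndependent F ![e, s, pw] := by
        rw [Fintype.linearIndependent_iff]
        intro c hc'
        simp only [Fin.sum_univ_three, Matrix.cons_val_zero, Matrix.cons_val_one, Matrix.cons_val] at hc'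
        have c2 : c 2 = 0 := by
          have h := congrArg (fun v => polar Q pw v) hc'
          simpa [polar_add_right, polar_smul_right, hep, hps, polar_self', h2, hc] using h
        rw [c2, zero_smul, add_zero] at hc'
        have c0 : c 0 = 0 := by
          have h := congrArg (fun v => polar Q z v) hc'
          rw [mem_perp_span] at hzK
          simpa [polar_add_right, polar_smul_right, polar_comm (⇑Q) z s, hzK, polar_comm (⇑Q) z e, hze] using h
        rw [c0, zero_smul, zero_add] at hc'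
        have c1 : c 1 = 0 := (smul_eq_zero.1 hc').resolve_right fun h => hsn (h ▸ Submodule.zero_mem _)
        intro i; fin_cases i <;> assumption
      set K := Submodule.span F (Set.range ![e, s, pw])
      have hK : Module.finrank F K = 3 := by rw [finrank_span_eq_card hind, Fintype.card_fin]
      have hKW : K ≤ W := Submodule.span_le.2 (by rintro _ ⟨i, rfl⟩; fin_cases i <;> assumption)
      have hle : Submodule.span F {e} ⊔ Submodule.span F {s} ≤ perp Q (perp Q W ⊔ K) := by
        rw [perp_sup, perp_perp hQ]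
        refine sup_le ?_ ?_ <;> rw [Submodule.span_singleton_le_iff_mem] <;> refine ⟨by assumption, ?_⟩ <;>
          refine mem_perp.2 fun w hw => ?_ <;>
          induction hw using Submodule.span_induction with
          | mem x hx =>
            obtain ⟨i, rfl⟩ := hx
            fin_cases i <;>
              simp [polar_self', hqe, hqs, hes, hep, hps, polar_comm (⇑Q) s e]
          | zero => simp
          | add x y _ _ hx hy => rw [polar_add_left, hx, hy, add_zero]
          | smul a x _ hx => rw [polar_smul_left, hx, smul_zero]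
      have h6 := Submodule.finrank_mono hle
      have h7 := finrank_perp_add hQ (perp Q W ⊔ K)
      have h8 := Submodule.finrank_sup_add_finrank_inf_eq (perp Q W) K
      have h9 : perp Q W ⊓ K = ⊥ := eq_bot_iff.2 fun x hx =>
        (Submodule.mem_bot F).2 (eq_zero_of_mem_mem hWU (hKW hx.2) hx.1)
      rw [h9, finrank_bot] at h8
      have h10 := Submodule.finrank_sup_add_finrank_inf_eq (Submodule.span F {e}) (Submodule.span F {s})
      have h11 : Submodule.span F {e} ⊓ Submodule.span F {s} = ⊥ := eq_bot_iff.2 fun x hx => by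
        obtain ⟨t, rfl⟩ := Submodule.mem_span_singleton.1 hx.2
        rcases eq_or_ne t 0 with rfl | ht
        · simp
        · exact absurd ((Submodule.smul_mem_iff _ ht).1 hx.1) hsn
      rw [h11, finrank_bot, finrank_span_singleton he0,
        finrank_span_singleton (fun h : s = 0 => hsn (h ▸ Submodule.zero_mem _))] at h10
      have h12 := finrank_perp_add hQ W
      omega
    have hA := move bw bu e s hbw hbu hx heW hsW hqe hes hep hps
    have hB := move bw bu e (-s) hbw hbu hx heW (W.neg_mem hsW) hqe (by rw [polar_neg_right, hes, neg_zero]) hep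
      (by rw [polar_neg_right, hps, neg_zero])
    refine hsingular ((-(2 * Q s * polar Q e bw)) • e) (W.smul_mem _ heW)
      (smul_ne_zero (neg_ne_zero.2 (mul_ne_zero (mul_ne_zero h2 hqs) hβ)) he0) ?_ ?_ ?_
    · rw [QuadraticMap.map_smul, hqe, smul_zero]
    · rw [polar_smul_right, hep, smul_zero]
    · convert hA.add hB using 1
      rw [polar_neg_left, QuadraticMap.map_neg]
      module

include hQ hWU hM hn in
/-- A root element of a point of `W` with a component outside `W`. -/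
theorem exists_rootIn_cross (h4 : Module.finrank F W = 4) (hplus : PlusFour Q W)
    (hminus : ∀ x ∈ perp Q W, ∀ y ∈ perp Q W, Q x = 0 → Q y = 0 → polar Q x y = 0 → x ≠ 0 →
      y ∈ Submodule.span F {x})
    (hV : Module.finrank F V = 8)
    {g : orth Q} (hg : g ∈ M) (hgW : ¬ Preserves W g)
    (hswap : ¬ ∀ x ∈ W, (g : V ≃ₗ[F] V) x ∈ perp Q W) :
    ∃ e ∈ W, e ≠ 0 ∧ ∃ c ∈ perp Q W, c ≠ 0 ∧ RootIn M e c := by
  set G := W.map ((g : V ≃ₗ[F] V) : V →ₗ[F] V) with hGdef
  have hmG : ∀ {x}, x ∈ G → ∃ y ∈ W, (g : V ≃ₗ[F] V) y = x := fun hx => hx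
  have hGdim : Module.finrank F G = Module.finrank F W := (g : V ≃ₗ[F] V).finrank_map_eq W
  have hGrad : Module.finrank F ↥(G ⊓ perp Q G) = 0 := by
    have hb : G ⊓ perp Q G = ⊥ := by
      rw [eq_bot_iff]
      rintro x ⟨hx, hx'⟩
      obtain ⟨y, hy, rfl⟩ := hmG hx
      have hy0 : y = 0 := eq_zero_of_mem_mem hWU hy (mem_perp.2 fun z hz => by
        have h := mem_perp.1 hx' _ (Submodule.mem_map_of_mem (f := ((g : V ≃ₗ[F] V) : V →ₗ[F] V)) hz)
        rwa [LinearEquiv.coe_coe, orth_polar] at h)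
      rw [hy0, map_zero]; exact Submodule.zero_mem _
    rw [hb, finrank_bot]
  -- a singular vector of the image outside both
  obtain ⟨p, hpG, hp, hpW, hpU⟩ : ∃ p ∈ G, Q p = 0 ∧ p ∉ W ∧ p ∉ perp Q W := by
    by_contra hc
    push Not at hc
    have key : ∀ X : Submodule F V, (∀ s ∈ G, Q s = 0 → s ∈ X) → G ≤ X := by
      intro X hX x hx
      rw [← perp_perp hQ X]
      refine mem_perp.2 fun y hy => ?_
      by_contra hyx
      obtain ⟨s, hs, hqs, hys⟩ := exists_singular_polar_ne (Q := Q) (S := G) (y := y)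
        (by omega) ⟨x, hx, hyx⟩
      exact hys (by rw [polar_comm]; exact mem_perp.1 hy s (hX s hs hqs))
    by_cases hall : ∀ s ∈ G, Q s = 0 → s ∈ W
    · exact hgW fun x hx => key W hall (Submodule.mem_map_of_mem hx)
    push Not at hall
    obtain ⟨s₁, hs₁, hq₁, hs₁W⟩ := hall
    have hs₁U := hc s₁ hs₁ hq₁ hs₁W
    refine hswap fun x hx => key (perp Q W) (fun s hs hqs => ?_) (Submodule.mem_map_of_mem hx)
    by_contra hsU
    have hsW : s ∈ W := by
      by_contra h
      exact hsU (hc s hs hqs h)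
    have hb : polar Q s s₁ = 0 := mem_perp.1 hs₁U s hsW
    have hsum : Q (s + s₁) = 0 := by rw [QuadraticMap.map_add (⇑Q), hqs, hq₁, hb]; simp
    by_cases hW' : s + s₁ ∈ W
    · exact hs₁W (by simpa using sub_mem hW' hsW)
    · exact hsU (by simpa using sub_mem (hc _ (add_mem hs hs₁) hsum hW') hs₁U)
  obtain ⟨pw, hpw, pu, hpu, rfl⟩ := exists_split hQ hWU p
  have hpw0 : pw ≠ 0 := fun h => hpU (by rw [h, zero_add]; exact hpu)
  have hpu0 : pu ≠ 0 := fun h => hpW (by rw [h, add_zero]; exact hpw)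
  have core := fun hex => cross_of_singular_part hQ hWU hM hn h4 hplus hg hp hpw hpu rfl hpG hpw0 hpu0 hex
  by_cases hc : Q pw = 0
  · exact core (Or.inl hc)
  by_cases h2 : (2 : F) ≠ 0
  · exact core (Or.inr (Or.inl h2))
  rw [not_ne_iff] at h2
  obtain ⟨pp, hppW, hpe⟩ := hmG hpG
  obtain ⟨x, hx, hqx, hxp, hxn⟩ := hplus pp hppW
  set b := (g : V ≃ₗ[F] V) x with hb
  have hbG : b ∈ G := Submodule.mem_map_of_mem hx
  have hqb : Q b = 0 := by rw [hb, orth_map, hqx]
  have hbp : polar Q (pw + pu) b = 0 := by rw [← hpe, hb, orth_polar, hxp]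
  have hqpu : Q pu = -Q pw := by
    have := mem_perp.1 hpu pw hpw
    rw [QuadraticMap.map_add (⇑Q), this] at hp
    linear_combination hp
  have hppu : polar Q (pw + pu) pu = 0 := by
    rw [polar_add_left, mem_perp.1 hpu pw hpw, polar_self', h2, zero_mul, add_zero]
  have hbn : ∀ k : F, k ≠ 0 → k • b ∉ Submodule.span F {pw + pu} ⊔ Submodule.span F {pu} := by
    intro k hk hm
    rw [Submodule.smul_mem_iff _ hk] at hm
    obtain ⟨y, hy, z, hz, hyz⟩ := Submodule.mem_sup.1 hm
    obtain ⟨l, rfl⟩ := Submodule.mem_span_singleton.1 hy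
    obtain ⟨m, rfl⟩ := Submodule.mem_span_singleton.1 hz
    rw [← hyz, map_smul_add_smul, hp, hqpu, hppu] at hqb
    have hm0 : m = 0 := by simpa [hc] using hqb
    rw [hm0, zero_smul, add_zero, ← hpe, hb, ← map_smul] at hyz
    exact hxn (Submodule.mem_span_singleton.2 ⟨l, (g : V ≃ₗ[F] V).injective hyz⟩)
  obtain ⟨bw, hbw, bu, hbu, hbe⟩ := exists_split hQ hWU b
  have huniq : ∀ {w u w' u' : V}, w ∈ W → u ∈ perp Q W → w' ∈ W → u' ∈ perp Q W → w + u = w' + u' → w = w' := by
    intro w u w' u' hw hu hw' hu' h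
    refine sub_eq_zero.1 (eq_zero_of_mem_mem hWU (sub_mem hw hw') ?_)
    rw [show w - w' = u' - u by rw [sub_eq_sub_iff_add_eq_add, h, add_comm]]
    exact sub_mem hu' hu
  have scaled : ∀ k : F, k ≠ 0 → (bw ∈ Submodule.span F {pw} ∨ k * polar Q pw bw ≠ 1) →
      ∃ e ∈ W, e ≠ 0 ∧ ∃ c ∈ perp Q W, c ≠ 0 ∧ RootIn M e c := fun k hk hπ =>
    core (Or.inr (Or.inr ⟨k • b, Submodule.smul_mem _ _ hbG, by rw [polar_smul_right, hbp, smul_zero], hbn k hk,
      fun w hw u hu he hwn => by
        have : w = k • bw := huniq hw hu (W.smul_mem _ hbw) (Submodule.smul_mem _ _ hbu) (by rw [← he, hbe, smul_add])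
        rw [this, polar_smul_right, smul_eq_mul]
        exact hπ.resolve_left fun h => hwn (this ▸ Submodule.smul_mem _ _ h)⟩))
  by_cases hbd : bw ∈ Submodule.span F {pw}
  · exact scaled 1 one_ne_zero (Or.inl hbd)
  by_cases hπ : polar Q pw bw ≠ 1
  · exact scaled 1 one_ne_zero (Or.inr (by rwa [one_mul]))
  rw [not_ne_iff] at hπ
  by_cases hF : ∃ k : F, k ≠ 0 ∧ k ≠ 1
  · obtain ⟨k, hk0, hk1⟩ := hF
    exact scaled k hk0 (Or.inr (by rwa [hπ, mul_one]))
  -- the field has two elements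
  push Not at hF
  have hbu0 : bu ≠ 0 := by
    rintro rfl
    rw [add_zero] at hbe
    rw [polar_add_left, hbe, hπ, polar_comm, mem_perp.1 hpu bw hbw, add_zero] at hbp
    exact one_ne_zero hbp
  by_cases hqbw : Q bw = 0
  · exact cross_of_singular_part hQ hWU hM hn h4 hplus hg hqb hbw hbu hbe hbG
      (fun h => hbd (h ▸ Submodule.zero_mem _)) hbu0 (Or.inl hqbw)
  have hbu' : Q bu = 1 := by
    refine hF _ fun h => hqbw ?_
    rw [hbe, QuadraticMap.map_add (⇑Q), h, mem_perp.1 hbu bw hbw] at hqb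
    simpa using hqb
  have hpu'' : Q pu = 1 := hF _ (by rw [hqpu]; exact neg_ne_zero.2 hc)
  have hπu : polar Q pu bu = 1 := by
    rw [hbe, polar_add_left, polar_add_right, polar_add_right, hπ, mem_perp.1 hbu pw hpw, polar_comm (⇑Q) pu bw,
      mem_perp.1 hpu bw hbw] at hbp
    linear_combination hbp - h2
  set U := perp Q W
  have hUU : U ⊓ perp Q U = ⊥ := by rw [perp_perp hQ, inf_comm]; exact hWU
  set K := U ⊓ perp Q (Submodule.span F {pu} ⊔ Submodule.span F {bu}) with hK
  have hKmem : ∀ {k}, k ∈ K → k ∈ U ∧ polar Q pu k = 0 ∧ polar Q bu k = 0 := by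
    intro k hk
    rw [hK, Submodule.mem_inf, perp_sup, Submodule.mem_inf, mem_perp_span, mem_perp_span] at hk
    exact hk
  obtain ⟨k₁, hk₁, hk₁0⟩ := Submodule.exists_mem_ne_zero_of_ne_bot (p := K) fun h => by
    have h1 := Submodule.finrank_sup_add_finrank_inf_eq U (perp Q (Submodule.span F {pu} ⊔ Submodule.span F {bu}))
    rw [← hK, h, finrank_bot] at h1
    have h2' := Submodule.finrank_le (U ⊔ perp Q (Submodule.span F {pu} ⊔ Submodule.span F {bu}))
    have h3 := finrank_perp_add hQ (Submodule.span F {pu} ⊔ Submodule.span F {bu})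
    have h5 := finrank_span_pair_le (F := F) pu bu
    have h6 : Module.finrank F U + Module.finrank F W = Module.finrank F V := finrank_perp_add hQ W
    omega
  obtain ⟨e', he'K, hqe', he'0⟩ : ∃ e ∈ K, Q e = 0 ∧ e ≠ 0 := by
    by_contra hcon
    push Not at hcon
    obtain ⟨hk₁U, hk₁p, hk₁b⟩ := hKmem hk₁
    obtain ⟨z, hz, hzk⟩ : ∃ z ∈ U, polar Q k₁ z ≠ 0 := by
      by_contra hc'
      push Not at hc'
      exact hk₁0 (eq_zero_of_mem_mem hUU hk₁U (mem_perp.2 fun r hr => by rw [polar_comm]; exact hc' r hr))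
    set k₂ := z - polar Q bu z • pu - polar Q pu z • bu with hk₂
    have hk₂K : k₂ ∈ K := by
      rw [hK, Submodule.mem_inf, perp_sup, Submodule.mem_inf, mem_perp_span, mem_perp_span]
      refine ⟨sub_mem (sub_mem hz (Submodule.smul_mem _ _ hpu)) (Submodule.smul_mem _ _ hbu), ?_, ?_⟩ <;>
        simp [hk₂, polar_sub_right, polar_smul_right, polar_self', h2, hπu, polar_comm (⇑Q) bu pu]
    obtain ⟨hk₂U, hk₂p, hk₂b⟩ := hKmem hk₂K
    have hk12 : polar Q k₁ k₂ = 1 := by
      refine hF _ ?_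
      rw [hk₂, polar_sub_right, polar_sub_right, polar_smul_right, polar_smul_right, polar_comm (⇑Q) k₁ pu, hk₁p,
        polar_comm (⇑Q) k₁ bu, hk₁b]
      simpa using hzk
    have hk₂0 : k₂ ≠ 0 := fun h => one_ne_zero (α := F) (by rw [← hk12, h, polar_zero_right])
    have q1 : Q k₁ = 1 := hF _ fun h => hk₁0 (hcon k₁ hk₁ h)
    have q2 : Q k₂ = 1 := hF _ fun h => hk₂0 (hcon k₂ hk₂K h)
    have hx0 : pu + k₁ ≠ 0 := fun h => one_ne_zero (α := F) (by
      have := congrArg (fun v => polar Q bu v) h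
      simpa [polar_add_right, polar_comm (⇑Q) bu pu, hπu, hk₁b] using this)
    obtain ⟨t, ht⟩ := Submodule.mem_span_singleton.1 (hminus (pu + k₁) (add_mem hpu hk₁U) (bu + k₂)
      (add_mem hbu hk₂U)
      (by rw [QuadraticMap.map_add (⇑Q), hpu'', q1, hk₁p]; linear_combination h2)
      (by rw [QuadraticMap.map_add (⇑Q), hbu', q2, hk₂b]; linear_combination h2)
      (by simp only [polar_add_left, polar_add_right, hπu, hk₂p, polar_comm (⇑Q) k₁ bu, hk₁b, hk12]
          linear_combination h2) hx0)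
    have := congrArg (fun v => polar Q pu v) ht
    simp [polar_add_right, polar_smul_right, polar_self', h2, hπu, hk₁p, hk₂p] at this
  obtain ⟨he'U, he'p, he'b⟩ := hKmem he'K
  have hrG : RootIn M (pw + pu) b := by
    have h := (rootIn_both hQ hM hn (by rw [← orth_map g pp, hpe, hp]) hxp (Or.inl ⟨hppW, hx⟩)).conj hg
    rwa [hpe] at h
  have hes : polar Q e' pu = 0 := by rw [polar_comm]; exact he'p
  have hr' := rootIn_both hQ hM hn hqe' hes (Or.inr ⟨he'U, hpu⟩)
  have he'w : ∀ {a}, a ∈ W → polar Q e' a = 0 := fun ha => by rw [polar_comm]; exact mem_perp.1 he'U _ ha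
  have hpuw : ∀ {a}, a ∈ W → polar Q pu a = 0 := fun ha => by rw [polar_comm]; exact mem_perp.1 hpu _ ha
  have h := hrG.conj hr'.2.2
  rw [eich_fix hqe' hes (by rw [polar_add_right, he'w hpw, hes, add_zero])
      (by rw [polar_add_right, hpuw hpw, polar_self', h2, zero_mul, add_zero]),
    eich_apply hqe' hes, hbe, polar_add_right, he'w hbw, polar_add_right, hpuw hbw,
    polar_comm (⇑Q) e' bu, he'b, hπu] at h
  replace h := h.sub (hbe ▸ hrG)
  have h1 : RootIn M (pw + pu) (-e') := by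
    convert h using 1
    simp only [add_zero, zero_smul, mul_zero, one_smul, zero_add, sub_zero]
    abel
  have h4' : RootIn M e' pw := by
    have hm1 : (-1 : F) = 1 := by linear_combination -h2
    have := (H98.SingPair.rootIn_symm h1 (by rw [QuadraticMap.map_neg, hqe']))
    have hneg : ∀ v : V, -v = v := fun v => by rw [← neg_one_smul F, hm1, one_smul]
    rw [hneg, hneg] at this
    have := this.sub hr'
    convert this using 1
    abel
  obtain ⟨z, hz, hzp⟩ : ∃ z ∈ W, polar Q pw z ≠ 0 := ⟨bw, hbw, by rw [hπ]; exact one_ne_zero⟩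
  obtain ⟨w, hw, hqw, hpww⟩ := exists_singular_polar_ne (Q := Q) (S := W) (y := pw)
    (by rw [hWU, finrank_bot]; omega) ⟨z, hz, hzp⟩
  have hyw : (eich Q e' pw : V ≃ₗ[F] V) w = w + (-polar Q pw w) • e' := by
    rw [eich_apply hqe' h4'.2.1, he'w hw]
    module
  exact cross_of_singular_part hQ hWU hM hn h4 hplus h4'.2.2 (p := w + (-polar Q pw w) • e')
    (by rw [← hyw, orth_map, hqw]) hw (Submodule.smul_mem _ _ he'U) rfl (hyw ▸ Submodule.mem_map_of_mem hw)
    (fun h => hpww (by rw [h, polar_zero_right])) (smul_ne_zero (neg_ne_zero.2 hpww) he'0) (Or.inl hqw)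

include hQ hWU hM hn in
/-- The root group of a point of `W` is invariant under scalars. -/
theorem rootIn_smul (h4 : Module.finrank F W = 4) (hplus : PlusFour Q W) {e c : V} (he : e ∈ W) (he0 : e ≠ 0)
    (hc : c ∈ perp Q W) (hec : RootIn M e c) {t : F} (ht : t ≠ 0) : RootIn M e (t • c) := by
  obtain ⟨f, hf, hp⟩ := exists_partner hWU he he0 hec.1
  obtain ⟨hrad, hdim⟩ := pair_complement hQ hWU he hf hp
  obtain ⟨e₂, he₂, f₂, hf₂, hp₂⟩ : ∃ e₂ ∈ W ⊓ pperp Q e f, ∃ f₂ ∈ W ⊓ pperp Q e f, HypPair Q e₂ f₂ := by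
    obtain ⟨x, hx, hqx, hex', hxn⟩ := hplus e he
    have hx' : x - polar Q f x • e ∈ W ⊓ pperp Q e f := by
      refine ⟨sub_mem hx (W.smul_mem _ he), mem_pperp.2 ⟨?_, ?_⟩⟩
      · rw [polar_sub_right, polar_smul_right, hex', polar_self', hp.left, mul_zero, smul_zero, sub_zero]
      · rw [polar_sub_right, polar_smul_right, hp.symm.pair, smul_eq_mul, mul_one, sub_self]
    obtain ⟨f₂, hf₂, hp₂⟩ := exists_partner hrad hx' (fun h0 => hxn (by
        rw [sub_eq_zero.1 h0]; exact Submodule.smul_mem _ _ (Submodule.mem_span_singleton_self e)))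
      (by rw [map_sub_smul, hqx, hp.left, polar_comm (⇑Q) x e, hex']; simp)
    exact ⟨_, hx', f₂, hf₂, hp₂⟩
  obtain ⟨he₂W, he₂p⟩ := he₂
  obtain ⟨hf₂W, hf₂p⟩ := hf₂
  obtain ⟨h21, h22⟩ := mem_pperp.1 he₂p
  obtain ⟨h31, h32⟩ := mem_pperp.1 hf₂p
  set y := e + e₂ with hy
  set z := t⁻¹ • (f + (t - 1) • f₂) with hz
  have hyq : Q y = 0 := by rw [hy, QuadraticMap.map_add (⇑Q), hp.left, hp₂.left, h21]; simp
  have hzq : Q z = 0 := by
    rw [hz, QuadraticMap.map_smul, map_add_smul, hp.right, hp₂.right, h32]; simp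
  have hfy : polar Q f y = 1 := by
    rw [hy, polar_add_right, polar_comm (⇑Q) f e, hp.pair, h22, add_zero]
  have hzy : polar Q z y = 1 := by
    rw [hz, hy, polar_smul_left, polar_add_left, polar_smul_left, polar_add_right, polar_add_right,
      polar_comm (⇑Q) f e, hp.pair, h22, polar_comm (⇑Q) f₂ e, h31, polar_comm (⇑Q) f₂ e₂,
      hp₂.pair]
    simp only [smul_eq_mul]
    field_simp
    ring
  have hze : polar Q z (t • e) = 1 := by
    rw [hz, polar_smul_left, polar_add_left, polar_smul_left, polar_smul_right, polar_smul_right,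
      polar_comm (⇑Q) f e, hp.pair, polar_comm (⇑Q) f₂ e, h31]
    simp only [smul_eq_mul]
    field_simp
    ring
  have hh1 : HypPair Q f e := hp.symm
  have hh2 : HypPair Q f y := ⟨hp.right, hyq, hfy⟩
  have hh3 : HypPair Q z y := ⟨hzq, hyq, hzy⟩
  have hh4 : HypPair Q z (t • e) := ⟨hzq, by rw [QuadraticMap.map_smul, hp.left, smul_zero], hze⟩
  obtain ⟨ha1, hm1⟩ := eich_map_partner hh1 hh2
  obtain ⟨ha2, hm2⟩ := eich_map_partner hh3 hh4
  have hyW : y ∈ W := add_mem he he₂W
  have hzW : z ∈ W := W.smul_mem _ (add_mem hf (W.smul_mem _ hf₂W))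
  have hA1W : y - e - polar Q e y • f ∈ W := sub_mem (sub_mem hyW he) (W.smul_mem _ hf)
  have hA2W : t • e - y - polar Q y (t • e) • z ∈ W :=
    sub_mem (sub_mem (W.smul_mem _ he) hyW) (W.smul_mem _ hzW)
  have hr1 := rootIn_both hQ hM hn hp.right ha1 (Or.inl ⟨hf, hA1W⟩)
  have hr2 := rootIn_both hQ hM hn hzq ha2 (Or.inl ⟨hzW, hA2W⟩)
  have h := hec.conj (mul_mem hr2.2.2 hr1.2.2)
  have hfix : ∀ {x s : V}, Q x = 0 → polar Q x s = 0 → x ∈ W → s ∈ W →
      (eich Q x s : V ≃ₗ[F] V) c = c := fun hx hxs hxW hsW =>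
    eich_fix hx hxs (mem_perp.1 hc _ hxW) (mem_perp.1 hc _ hsW)
  rw [orth_mul_apply, orth_mul_apply, hm1, hm2, hfix hp.right ha1 hf hA1W,
    hfix hzq ha2 hzW hA2W] at h
  exact h.smul_left ht

include hQ hWU hM hn in
/-- The main step of the maximality of a non-degenerate stabiliser. -/
theorem commutator_le_of_nondeg (h4 : Module.finrank F W = 4) (hplus : PlusFour Q W)
    (hV : Module.finrank F V = 8)
    (hminus : ∀ x ∈ perp Q W, ∀ y ∈ perp Q W, Q x = 0 → Q y = 0 → polar Q x y = 0 → x ≠ 0 →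
      y ∈ Submodule.span F {x})
    {g : orth Q} (hg : g ∈ M) (hgW : ¬ Preserves W g)
    (hswap : ¬ ∀ x ∈ W, (g : V ≃ₗ[F] V) x ∈ perp Q W) : commutator (orth Q) ≤ M := by
  obtain ⟨e, he, he0, c, hc, hc0, hec⟩ := exists_rootIn_cross hQ hWU hM hn h4 hplus hminus hV hg hgW hswap
  let A : Submodule F V :=
    { carrier := {x | x ∈ perp Q W ∧ RootIn M e x}
      add_mem' := fun hx hy => ⟨add_mem hx.1 hy.1, hx.2.add hy.2⟩
      zero_mem' := ⟨Submodule.zero_mem _, by simpa using hec.sub hec⟩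
      smul_mem' := fun t x hx => by
        by_cases ht : t = 0
        · subst ht
          rw [zero_smul]
          exact ⟨Submodule.zero_mem _, by simpa using hec.sub hec⟩
        · exact ⟨Submodule.smul_mem _ _ hx.1, rootIn_smul hQ hWU hM hn h4 hplus he he0 hx.1 hx.2 ht⟩ }
  have hcA : c ∈ A := ⟨hc, hec⟩
  have hUU : perp Q W ⊓ perp Q (perp Q W) = ⊥ := by rw [perp_perp hQ, inf_comm]; exact hWU
  have hA : perp Q W ≤ A := by
    have h3 : 3 ≤ Module.finrank F (perp Q W) := by
      have := finrank_perp_add hQ W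
      omega
    -- singular vectors of the complement lie in the root group
    have hsing : ∀ c' ∈ A, ∀ e₁ ∈ perp Q W, Q e₁ = 0 → polar Q c' e₁ ≠ 0 → e₁ ∈ A := by
      intro c' hc' e₁ he₁ hq₁ hne
      have he₁0 : e₁ ≠ 0 := fun h => hne (by rw [h, polar_zero_right])
      obtain ⟨f₁, hf₁, hp₁⟩ := exists_partner hUU he₁ he₁0 hq₁
      obtain ⟨hrad, hdim⟩ := pair_complement hQ hUU he₁ hf₁ hp₁
      set P := perp Q W ⊓ pperp Q e₁ f₁
      obtain ⟨s, hs, hs0⟩ := Submodule.exists_mem_ne_zero_of_ne_bot (p := P) fun h => by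
        rw [h, finrank_bot] at hdim; omega
      obtain ⟨r, hr, hrs⟩ : ∃ r ∈ P, polar Q s r ≠ 0 := by
        by_contra hcon
        push Not at hcon
        exact hs0 (eq_zero_of_mem_mem hrad hs
          (mem_perp.2 fun r hr => by rw [polar_comm]; exact hcon r hr))
      have hD : ∀ x ∈ P, polar Q e₁ c' • x - (polar Q x c' + Q x * polar Q e₁ c') • e₁ ∈ A := by
        intro x hx
        have hx1 : polar Q e₁ x = 0 := (mem_pperp.1 hx.2).1
        have hh := rootIn_both hQ hM hn hq₁ hx1 (Or.inr ⟨he₁, hx.1⟩)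
        have h := hc'.2.conj hh.2.2
        rw [eich_fix hq₁ hx1 (by rw [polar_comm]; exact mem_perp.1 he₁ e he)
          (by rw [polar_comm]; exact mem_perp.1 hx.1 e he), eich_apply hq₁ hx1] at h
        have h' := h.sub hc'.2
        refine ⟨sub_mem (Submodule.smul_mem _ _ hx.1) (Submodule.smul_mem _ _ he₁), ?_⟩
        convert h' using 1
        module
      have h := sub_mem (sub_mem (hD _ (add_mem hs hr)) (hD s hs)) (hD r hr)
      have h' : -(polar Q s r * polar Q e₁ c') • e₁ ∈ A := by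
        convert h using 1
        rw [QuadraticMap.map_add (⇑Q), polar_add_left]
        module
      have hne' : -(polar Q s r * polar Q e₁ c') ≠ 0 :=
        neg_ne_zero.2 (mul_ne_zero hrs (by rwa [polar_comm]))
      have := A.smul_mem (-(polar Q s r * polar Q e₁ c'))⁻¹ h'
      rwa [inv_smul_smul₀ hne'] at this
    obtain ⟨z, hz, hcz⟩ : ∃ z ∈ perp Q W, polar Q c z ≠ 0 := by
      by_contra hcon
      push Not at hcon
      exact hc0 (eq_zero_of_mem_mem hUU hc
        (mem_perp.2 fun r hr => by rw [polar_comm]; exact hcon r hr))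
    obtain ⟨e₁, he₁, hq₁, hce⟩ := exists_singular_polar_ne (Q := Q) (S := perp Q W) (y := c)
      (by rw [hUU, finrank_bot]; omega) ⟨z, hz, hcz⟩
    have he₁A := hsing c hcA e₁ he₁ hq₁ hce
    obtain ⟨f₁, hf₁, hp₁⟩ := exists_partner hUU he₁
      (fun h => hce (by rw [h, polar_zero_right])) hq₁
    have hf₁A := hsing e₁ he₁A f₁ hf₁ hp₁.right (by rw [hp₁.pair]; exact one_ne_zero)
    intro x hx
    set w := x - polar Q f₁ x • e₁ - polar Q e₁ x • f₁ with hwd
    have hw : w ∈ pperp Q e₁ f₁ := hp₁.decomp x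
    have hwU : w ∈ perp Q W :=
      sub_mem (sub_mem hx (Submodule.smul_mem _ _ he₁)) (Submodule.smul_mem _ _ hf₁)
    obtain ⟨hl1, -, hl3⟩ := hp₁.singular_lift hw
    have hl := hsing f₁ hf₁A _ (add_mem (add_mem he₁ (Submodule.smul_mem _ _ hf₁)) hwU) hl1
      (by rw [hl3]; exact one_ne_zero)
    have hwA : w ∈ A := by
      have := sub_mem hl (add_mem he₁A (A.smul_mem (-Q w) hf₁A))
      simpa using this
    have hx' : x = w + polar Q f₁ x • e₁ + polar Q e₁ x • f₁ := by rw [hwd]; abel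
    rw [hx']
    exact add_mem (add_mem hwA (A.smul_mem _ he₁A)) (A.smul_mem _ hf₁A)
  have hfull : FullRoot M e := by
    refine ⟨hec.1, fun x hx => ?_⟩
    obtain ⟨w, hw, u, hu, rfl⟩ := exists_split hQ hWU x
    have hew : polar Q e w = 0 := by
      rw [polar_add_right, mem_perp.1 hu e he, add_zero] at hx
      exact hx
    exact ((rootIn_both hQ hM hn hec.1 hew (Or.inl ⟨he, hw⟩)).add (hA hu).2).2.2
  obtain ⟨f, hf, hp⟩ := exists_partner hWU he he0 hec.1
  obtain ⟨hrad, hdim⟩ := pair_complement hQ hWU he hf hp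
  obtain ⟨a, ⟨haW, hap⟩, hQa⟩ := exists_anisotropic hrad (by omega)
  obtain ⟨hea, hfa⟩ := mem_pperp.1 hap
  refine commutator_le_of_fullRoot hQ hn hfull
    (hfull.conj (rootIn_both hQ hM hn hp.right hfa (Or.inl ⟨hf, haW⟩)).2.2) ?_
  rw [eich_apply hp.right hfa, polar_comm (⇑Q) f e, hp.pair, polar_comm (⇑Q) a e, hea]
  simp [polar_add_right, polar_sub_right, polar_smul_right, polar_self', hec.1, hea, hp.pair]
  exact hQa



end Cfsg.Agent.H76.O8
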