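import Cfsg.Agent.H76.O8.FieldMain
import Cfsg.Agent.H76.O8.StabFour
import Cfsg.Agent.H76.O8.StabVector
import Cfsg.Agent.H76.O8.OrthSubMain
import Cfsg.Agent.H5.StabNondegGL
import Cfsg.Agent.H98.QuadFun

/-!
Geometric maximal subgroups of `Ω` in dimension eight: inside the general linear group.
-/

set_option autoImplicit false
set_option linter.unusedSectionVars false
set_option linter.unusedVariables false

namespace Cfsg.Agent.H76.O8

open scoped Matrix
open QuadraticMap hiding sq
open Cfsg.Agent.H5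
open Cfsg.Agent.H58.ExtField Cfsg.Agent.H58.ExtField.Orth

variable {ι : Type} [Fintype ι] [DecidableEq ι] {F : Type*} [Field F] [Fintype F]

/-- The normaliser of a self-adjoint quadratic field is maximal in `Ω` also with four coordinates over it. -/
theorem field_maximal_orth_small (Q : QuadraticForm F (ι → F)) {f : (ι → F) → F} (hf : ⇑Q = f)
    (hQ : (polarBilin Q).Nondegenerate) (h2 : (2 : F) ≠ 0) {r : ℕ} {K : Subalgebra F (Matrix ι ι F)}
    (hr : r.Prime) (hK : Cfsg.Geo.IsFieldSubalgebra r K) (h2r : r = 2) (h8 : 4 * r = Fintype.card ι)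
    (hsa : Cfsg.Geo.IsSelfAdjointFor (QuadraticMap.polar f) K) :
    Cfsg.Geo.IsMaximalIn (Cfsg.Geo.omegaGL f) (Cfsg.Geo.subalgebraNormalizer K ⊓ Cfsg.Geo.omegaGL f) := by
  classical
  have h4 : 3 * r ≤ Fintype.card ι := by omega
  have hr2 := hr.two_le
  have : Nonempty ι := Fintype.card_pos_iff.1 (by omega)
  haveI : Finite (ι → F) := Pi.finite
  have hfr : Module.finrank F (FK hK) = r := FK.finrank_eq hK
  have hn : r * Module.finrank (FK hK) (ι → F) = Fintype.card ι := by
    have := Module.finrank_mul_finrank F (FK hK) (ι → F)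
    rwa [hfr, Module.finrank_fintype_fun_eq_card] at this
  have hcard : Module.finrank F (ι → F) = Fintype.card ι := Module.finrank_fintype_fun_eq_card F
  have hext : ∀ {A B : Matrix ι ι F}, (∀ v, A *ᵥ v = B *ᵥ v) → A = B := fun he =>
    Matrix.ext_of_mulVec_single fun _ => he _
  have hsemi : ∀ g : orth Q, SemiL (FK hK) g.1 → toGLHom Q hf g ∈ Cfsg.Geo.subalgebraNormalizer K := by
    intro g hg
    refine mem_normalizer_of_conj fun k hk => ?_
    obtain ⟨d, hd⟩ := hg (FK.mk hK k hk)
    have : ((toGLHom Q hf g : GL ι F) : Matrix ι ι F) * k * (((toGLHom Q hf g)⁻¹ : GL ι F) : Matrix ι ι F) =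
        d.mat := hext fun v => by
      rw [← Matrix.mulVec_mulVec, ← Matrix.mulVec_mulVec, toGLHom_mulVec, ← map_inv, toGLHom_mulVec]
      have := hd (((g⁻¹ : orth Q) : (ι → F) ≃ₗ[F] (ι → F)) v)
      rw [FK.smul_eq, FK.smul_eq, orth_apply_inv_apply] at this
      exact this
    rw [this]
    exact (d : ↥K).2
  refine isMaximalIn_omegaGL Q hf _ ?_ fun M hM g hg _ hgS => ?_
  · -- an Eichler transformation is not semilinear
    obtain ⟨c, hc⟩ : ∃ c : FK hK, c ∉ Set.range (algebraMap F (FK hK)) := by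
      by_contra hall
      push Not at hall
      have h1 := Fintype.card_le_of_surjective _ hall
      rw [← Nat.card_eq_fintype_card (α := FK hK), card_E F (FK hK), hfr] at h1
      have h3 : Fintype.card F ^ 2 ≤ Fintype.card F ^ r := Nat.pow_le_pow_right Fintype.card_pos hr2
      have h4' : 2 ≤ Fintype.card F := Fintype.one_lt_card
      have h5 := le_trans h3 h1
      rw [pow_two] at h5
      nlinarith
    obtain ⟨v, hv0, hv⟩ := exists_singular hQ (by omega)
    obtain ⟨u, hvu, hu⟩ : ∃ u, polar Q v u = 0 ∧ u ∉ Submodule.span (FK hK) {v} := by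
      by_contra h
      push Not at h
      have h1 : LinearMap.ker (polarBilin Q v) ≤
          LinearMap.range ((LinearMap.toSpanSingleton (FK hK) (ι → F) v).restrictScalars F) := fun u hu => by
        obtain ⟨e, rfl⟩ := Submodule.mem_span_singleton.1 (h u hu)
        exact ⟨e, rfl⟩
      have h1' := Submodule.finrank_mono h1
      have h1'' := LinearMap.finrank_range_le ((LinearMap.toSpanSingleton (FK hK) (ι → F) v).restrictScalars F)
      have h2' := (polarBilin Q v).finrank_range_add_finrank_ker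
      have h3 := Submodule.finrank_le (LinearMap.range (polarBilin Q v))
      rw [Module.finrank_self] at h3
      omega
    have hQE : ∀ z, (eich Q v u : (ι → F) ≃ₗ[F] (ι → F)) z =
        z + polar Q v z • u - polar Q u z • v - (Q u * polar Q v z) • v := eich_apply hv hvu
    refine ⟨eich Q v u, eichGroup_le_commutator hQ (Or.inr (by omega)) (eich_mem_eichGroup _ _), fun h => ?_⟩
    obtain ⟨d, hd⟩ : ∃ d : FK hK, ∀ x, (eich Q v u : (ι → F) ≃ₗ[F] (ι → F)) (c • x) =
        d • (eich Q v u : (ι → F) ≃ₗ[F] (ι → F)) x := by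
      refine ⟨FK.mk hK _ ((h c.mat).1 (c : ↥K).2), fun x => ?_⟩
      rw [FK.smul_eq, FK.smul_eq]
      show _ = (_ * _ * _) *ᵥ _
      rw [← Matrix.mulVec_mulVec, ← Matrix.mulVec_mulVec, ← toGLHom_mulVec Q hf, ← toGLHom_mulVec Q hf,
        H98.gl_inv_mulVec]
    -- fixed vectors give `d = c`
    let L : (ι → F) →ₗ[F] (F × F) × (F × F) :=
      ((polarBilin Q v).prod (polarBilin Q u)).prod
        (((polarBilin Q v).prod (polarBilin Q u)) ∘ₗ DistribSMul.toLinearMap F (ι → F) c)
    obtain ⟨z, hz, hz0⟩ : ∃ z ∈ LinearMap.ker L, z ≠ 0 :=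
      Submodule.exists_mem_ne_zero_of_ne_bot fun hker => by
        have := LinearMap.finrank_le_finrank_of_injective (LinearMap.ker_eq_bot.1 hker)
        rw [hcard, Module.finrank_prod, Module.finrank_prod, Module.finrank_self] at this
        omega
    simp only [L, LinearMap.mem_ker, LinearMap.prod_apply, Function.prod_apply, Prod.mk_eq_zero,
      LinearMap.comp_apply, DistribSMul.toLinearMap_apply, polarBilin_apply_apply] at hz
    obtain ⟨⟨z1, z2⟩, z3, z4⟩ := hz
    have hdc : d = c := by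
      have := hd z
      rw [hQE, hQE, z1, z2, z3, z4] at this
      simp only [mul_zero, zero_smul, add_zero, sub_zero] at this
      exact (smul_left_injective (FK hK) hz0 this).symm
    have huv : u ∉ Submodule.span F {v} := fun h' => hu (by
      obtain ⟨t, rfl⟩ := Submodule.mem_span_singleton.1 h'
      rw [← algebraMap_smul (FK hK) t v]
      exact Submodule.smul_mem _ _ (Submodule.mem_span_singleton_self v))
    obtain ⟨x, hx1, hx2⟩ := exists_polar_pair hQ hv0 huv 0 1
    have := hd x
    rw [hdc, hQE, hQE, hx1, hx2, smul_sub, smul_sub, smul_add] at this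
    simp only [mul_zero, zero_smul, smul_zero, add_zero, sub_zero, one_smul] at this
    -- so `c • v` is in the span of `u` and `v`
    by_cases hcu : polar Q v (c • x) = 0
    · rw [hcu] at this
      simp only [mul_zero, zero_smul, add_zero, sub_zero, sub_right_inj] at this
      refine hc ⟨polar Q u (c • x), smul_left_injective (FK hK) hv0 ?_⟩
      show algebraMap F (FK hK) _ • v = c • v
      rw [algebraMap_smul]
      exact this
    · refine hu ?_
      have e : polar Q v (c • x) • u =
          (algebraMap F (FK hK) (polar Q u (c • x) + Q u * polar Q v (c • x)) - c) • v := by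
        rw [sub_smul, algebraMap_smul, add_smul]
        linear_combination (norm := module) this
      rw [← inv_smul_smul₀ hcu u, e, ← algebraMap_smul (FK hK) (polar Q v (c • x))⁻¹, smul_smul]
      exact Submodule.smul_mem _ _ (Submodule.mem_span_singleton_self v)
  · obtain ⟨fB, hfB⟩ := exists_form Q fun (c : FK hK) x y => by
      rw [hf, FK.smul_eq, FK.smul_eq]
      exact hsa _ (c : ↥K).2 x y
    have hdim : ∀ k, k * r ≤ Fintype.card ι → k ≤ Module.finrank (FK hK) (ι → F) := fun k hk =>
      Nat.le_of_mul_le_mul_left (by rw [hn, mul_comm]; exact hk) hr.pos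
    have H : OCtx Q fB M :=
      { prime := by rw [hfr]; exact hr
        two := h2
        nd := hQ
        htr := hfB
        dim := hdim 3 h4
        lin := fun k hk hl => hM k hk (hsemi k fun c => ⟨c, hl c⟩)
        notSemi := ⟨g, hg, fun hs => hgS (hsemi g hs)⟩ }
    exact omega_le_small H (hdim 4 h8.le) (Or.inl (by rw [hfr, h2r]))

/-- The stabiliser of a non-degenerate four-space of plus type is maximal. -/
theorem isMaximalIn_stab_four_plus (Q : QuadraticForm F (ι → F)) {f : (ι → F) → F} (hf : ⇑Q = f)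
    (hQ : (polarBilin Q).Nondegenerate) (h8 : Fintype.card ι = 8)
    (hno : ¬ ∃ U : Submodule F (ι → F), (∀ u ∈ U, Q u = 0) ∧ Module.finrank F U = 4)
    (W : Submodule F (ι → F)) (h4 : Module.finrank F W = 4) (hWU : W ⊓ perp Q W = ⊥)
    {T : Submodule F (ι → F)} (hTW : T ≤ W) (hT : ∀ t ∈ T, Q t = 0) (hT2 : Module.finrank F T = 2) :
    Cfsg.Geo.IsMaximalIn (Cfsg.Geo.omegaGL f)
      (Cfsg.Geo.subspaceStabilizer W ⊓ Cfsg.Geo.omegaGL f) := by
  haveI : Finite (ι → F) := Pi.finite
  have hr : Module.finrank F (ι → F) = 8 := by rw [Module.finrank_fintype_fun_eq_card, h8]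
  have hsum := finrank_perp_add hQ W
  have hU0 : perp Q W ≠ ⊥ := fun h => by rw [h, finrank_bot] at hsum; omega
  have hminus : ∀ x ∈ perp Q W, ∀ y ∈ perp Q W, Q x = 0 → Q y = 0 → polar Q x y = 0 → x ≠ 0 →
      y ∈ Submodule.span F {x} := by
    intro x hx y hy hqx hqy hxy hx0
    by_contra hyn
    refine hno ⟨T ⊔ (Submodule.span F {x} ⊔ Submodule.span F {y}), ?_, ?_⟩
    · intro u hu
      obtain ⟨t, ht, s, hs, rfl⟩ := Submodule.mem_sup.1 hu
      obtain ⟨a, ha, b, hb, rfl⟩ := Submodule.mem_sup.1 hs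
      obtain ⟨i, rfl⟩ := Submodule.mem_span_singleton.1 ha
      obtain ⟨j, rfl⟩ := Submodule.mem_span_singleton.1 hb
      rw [QuadraticMap.map_add (⇑Q), hT t ht, map_smul_add_smul, hqx, hqy, hxy,
        mem_perp.1 (add_mem (Submodule.smul_mem _ i hx) (Submodule.smul_mem _ j hy)) t (hTW ht)]
      ring
    · have h1 := Submodule.finrank_sup_add_finrank_inf_eq T (Submodule.span F {x} ⊔ Submodule.span F {y})
      have h2 : T ⊓ (Submodule.span F {x} ⊔ Submodule.span F {y}) = ⊥ := eq_bot_iff.2 fun u hu =>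
        (Submodule.mem_bot F).2 (eq_zero_of_mem_mem hWU (hTW hu.1)
          ((sup_le ((Submodule.span_singleton_le_iff_mem _ _).2 hx)
            ((Submodule.span_singleton_le_iff_mem _ _).2 hy)) hu.2))
      rw [h2, finrank_bot, hT2, Submodule.finrank_sup_span_singleton hyn, finrank_span_singleton hx0] at h1
      omega
  refine isMaximalIn_omegaGL Q hf _ ?_ ?_
  · obtain ⟨g, hg, hgW⟩ := exists_not_preserves_nondeg hQ hWU (by omega) (by omega) hU0
    exact ⟨g, hg, fun h => hgW ((toGLHom_mem_stab_iff Q hf W g).1 h)⟩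
  · intro M hM g hgM _ hgS
    have hgW : ¬ Preserves W g := fun h => hgS ((toGLHom_mem_stab_iff Q hf W g).2 h)
    refine commutator_le_of_nondeg hQ hWU (fun k hk hkW => hM k hk ((toGLHom_mem_stab_iff Q hf W k).2 hkW))
      (by omega) h4 (plusFour_of_plane hTW hT hT2) hr hminus hgM hgW fun hswap => ?_
    obtain ⟨U, hU, hU4⟩ := exists_singular_half_of_swap hWU (k := 2) (by omega) g hswap
    exact hno ⟨U, hU, hU4⟩

/-- One of a four-space and its perp contains a totally singular plane. -/
theorem exists_plane (Q : QuadraticForm F (ι → F)) (hQ : (polarBilin Q).Nondegenerate) (h8 : Fintype.card ι = 8)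
    (hno : ¬ ∃ U : Submodule F (ι → F), (∀ u ∈ U, Q u = 0) ∧ Module.finrank F U = 4)
    (W : Submodule F (ι → F)) (h4 : Module.finrank F W = 4) (hWU : W ⊓ perp Q W = ⊥) :
    (∃ T ≤ W, (∀ t ∈ T, Q t = 0) ∧ Module.finrank F T = 2) ∨
      ∃ T ≤ perp Q W, (∀ t ∈ T, Q t = 0) ∧ Module.finrank F T = 2 := by
  haveI : Finite (ι → F) := Pi.finite
  by_contra hc
  push Not at hc
  have hnd : ∀ W : Submodule F (ι → F), W ⊓ perp Q W = ⊥ → (polarBilin (Q.comp W.subtype)).Nondegenerate := by
    intro W hWU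
    have hp : ∀ x y : W, polar (Q.comp W.subtype) x y = polar Q (x : ι → F) (y : ι → F) := fun x y => by
      simp [QuadraticMap.polar]
    refine ⟨fun x hx => ?_, fun x hx => ?_⟩ <;>
      refine Subtype.ext (eq_zero_of_mem_mem hWU x.2 (mem_perp.2 fun z hz => ?_))
    · rw [polar_comm]; exact (hp x ⟨z, hz⟩).symm.trans (hx ⟨z, hz⟩)
    · exact (hp ⟨z, hz⟩ x).symm.trans (hx ⟨z, hz⟩)
  have hUU : perp Q W ⊓ perp Q (perp Q W) = ⊥ := by rw [perp_perp hQ, inf_comm]; exact hWU
  have hnd' : (polarBilin (-(Q.comp (perp Q W).subtype))).Nondegenerate := by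
    refine ⟨fun x hx => (hnd _ hUU).1 x fun y => ?_, fun x hx => (hnd _ hUU).2 x fun y => ?_⟩
    · have := hx y; simpa [QuadraticMap.polar_neg] using this
    · have := hx y; simpa [QuadraticMap.polar_neg] using this
  have hU4 : Module.finrank F (perp Q W) = 2 * 2 := by
    have h := finrank_perp_add hQ W
    rw [Module.finrank_fintype_fun_eq_card, h8, h4] at h
    omega
  have hmap : ∀ (S : Submodule F (ι → F)) (T : Submodule F S),
      Module.finrank F (T.map S.subtype) = Module.finrank F T := fun S T => Submodule.finrank_map_subtype_eq S T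
  obtain ⟨h, hh⟩ := H4.isom_even_of_iff (hnd W hWU) hnd' (m := 2) (by omega) hU4
    (iff_of_false
      (fun ⟨T, hT, hT2⟩ => hc.1 (T.map W.subtype) (Submodule.map_subtype_le W T)
        (by rintro _ ⟨t, ht, rfl⟩; exact hT t ht) (by rw [hmap, hT2]))
      (fun ⟨T, hT, hT2⟩ => hc.2 (T.map (perp Q W).subtype) (Submodule.map_subtype_le (perp Q W) T)
        (by rintro _ ⟨t, ht, rfl⟩; simpa using hT t ht) (by rw [hmap, hT2])))
  let φ : W →ₗ[F] (ι → F) := W.subtype + (perp Q W).subtype.comp h.toLinearMap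
  have hφ : ∀ x, φ x = (x : ι → F) + (h x : ι → F) := fun x => rfl
  refine hno ⟨LinearMap.range φ, ?_, ?_⟩
  · rintro _ ⟨x, rfl⟩
    have h2 : -Q (h x : ι → F) = Q (x : ι → F) := hh x
    rw [hφ, QuadraticMap.map_add (⇑Q), mem_perp.1 (h x).2 x x.2, ← h2]
    ring
  · rw [LinearMap.finrank_range_of_inj, h4]
    refine (injective_iff_map_eq_zero φ).2 fun x hx => Subtype.ext ?_
    rw [hφ] at hx
    refine eq_zero_of_mem_mem hWU x.2 ?_
    rw [eq_neg_of_add_eq_zero_left hx]
    exact neg_mem (h x).2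

/-- The stabiliser of any non-degenerate four-space is maximal when there is no singular four-space. -/
theorem isMaximalIn_stab_four (Q : QuadraticForm F (ι → F)) {f : (ι → F) → F} (hf : ⇑Q = f)
    (hQ : (polarBilin Q).Nondegenerate) (h8 : Fintype.card ι = 8)
    (hno : ¬ ∃ U : Submodule F (ι → F), (∀ u ∈ U, Q u = 0) ∧ Module.finrank F U = 4)
    (W : Submodule F (ι → F)) (h4 : Module.finrank F W = 4) (hWU : W ⊓ perp Q W = ⊥) :
    Cfsg.Geo.IsMaximalIn (Cfsg.Geo.omegaGL f)
      (Cfsg.Geo.subspaceStabilizer W ⊓ Cfsg.Geo.omegaGL f) := by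
  haveI : Finite (ι → F) := Pi.finite
  rcases exists_plane Q hQ h8 hno W h4 hWU with ⟨T, hTW, hT, hT2⟩ | ⟨T, hTW, hT, hT2⟩
  · exact isMaximalIn_stab_four_plus Q hf hQ h8 hno W h4 hWU hTW hT hT2
  · have hU4 : Module.finrank F (perp Q W) = 4 := by
      have h := finrank_perp_add hQ W
      rw [Module.finrank_fintype_fun_eq_card, h8, h4] at h
      omega
    have hUU : perp Q W ⊓ perp Q (perp Q W) = ⊥ := by rw [perp_perp hQ, inf_comm]; exact hWU
    have h := isMaximalIn_stab_four_plus Q hf hQ h8 hno (perp Q W) hU4 hUU hTW hT hT2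
    have hsame : Cfsg.Geo.subspaceStabilizer (perp Q W) ⊓ Cfsg.Geo.omegaGL f =
        Cfsg.Geo.subspaceStabilizer W ⊓ Cfsg.Geo.omegaGL f := by
      ext x
      simp only [Subgroup.mem_inf]
      refine and_congr_left fun hx => ?_
      rw [omegaGL_eq_map Q hf] at hx
      obtain ⟨g, -, rfl⟩ := hx
      rw [toGLHom_mem_stab_iff, toGLHom_mem_stab_iff]
      exact ⟨fun h => by have := h.perp; rwa [perp_perp hQ] at this, fun h => h.perp⟩
    rwa [hsame] at h

/-- The stabiliser of a non-singular point in characteristic two is maximal from dimension eight on. -/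
theorem isMaximalIn_stab_point (Q : QuadraticForm F (ι → F)) {f : (ι → F) → F} (hf : ⇑Q = f)
    (hQ : (polarBilin Q).Nondegenerate) (h2 : (2 : F) = 0) (h8 : 8 ≤ Fintype.card ι) {v : ι → F} (hv : Q v ≠ 0) :
    Cfsg.Geo.IsMaximalIn (Cfsg.Geo.omegaGL f)
      (Cfsg.Geo.subspaceStabilizer (Submodule.span F {v}) ⊓ Cfsg.Geo.omegaGL f) := by
  haveI : Finite (ι → F) := Pi.finite
  have hr : Module.finrank F (ι → F) = Fintype.card ι := Module.finrank_fintype_fun_eq_card F
  refine isMaximalIn_omegaGL Q hf _ ?_ ?_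
  · obtain ⟨g, hg, hgv⟩ := exists_not_preserves_point hQ (by omega) (v := v) hv
    exact ⟨g, hg, fun h => hgv ((toGLHom_mem_stab_iff Q hf _ g).1 h)⟩
  · intro M hM g hgM _ hgS
    exact Cfsg.Agent.H76.O8.commutator_le_of_point hQ h2 (by omega) (v := v) hv
      (fun k hk hkW => hM k hk ((toGLHom_mem_stab_iff Q hf _ k).2 hkW)) hgM
      (fun h => hgS ((toGLHom_mem_stab_iff Q hf _ g).2 h))

end Cfsg.Agent.H76.O8
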