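import Cfsg.Agent.H5.RootClosure
import Cfsg.Agent.H98.SingPair
import Cfsg.Agent.H98.SubfieldScalars
import Cfsg.Agent.H98.SpSubfieldBase

set_option autoImplicit false
set_option linter.unusedSectionVars false

/-!
A quadratic form rational over a subfield: the geometry of rational vectors, rational isometries.
-/

namespace Cfsg.Agent.H76.O8

open Cfsg.Agent.H98

open Cfsg.Agent.H5 QuadraticMap

variable {ι : Type} [Fintype ι] [DecidableEq ι] {F : Type*} [Field F] [Finite F]

local notation "V" => (ι → F)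

/-- Standing hypotheses for a form rational over a subfield. -/
structure OR (q : QuadraticForm F (ι → F)) (F₀ : Subfield F) (r : ℕ) : Prop where
  nondeg : (polarBilin q).Nondegenerate
  rat : ∀ x, IsRatVec F₀ x → q x ∈ F₀
  big : 8 ≤ Fintype.card ι
  prime : r.Prime
  card : Nat.card F = Nat.card F₀ ^ r

/-- Coordinates in the subfield viewed in the field. -/
def incl (F₀ : Subfield F) : (ι → F₀) →ₗ[F₀] (ι → F) where
  toFun a i := (a i : F)
  map_add' _ _ := rfl
  map_smul' _ _ := rfl

theorem incl_rat {F₀ : Subfield F} (a : ι → F₀) : IsRatVec F₀ (incl F₀ a) := fun i => (a i).2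

theorem exists_incl {F₀ : Subfield F} {x : ι → F} (hx : IsRatVec F₀ x) : ∃ a, incl F₀ a = x :=
  ⟨fun i => ⟨x i, hx i⟩, rfl⟩

theorem incl_injective (F₀ : Subfield F) : Function.Injective (incl (ι := ι) F₀) := fun _ _ h =>
  funext fun i => Subtype.ext (congrFun h i)

theorem isRat_zero {F₀ : Subfield F} : IsRatVec F₀ (0 : ι → F) := fun _ => zero_mem _

theorem isRat_sum {F₀ : Subfield F} {α : Type*} (s : Finset α) (v : α → ι → F)
    (h : ∀ a ∈ s, IsRatVec F₀ (v a)) : IsRatVec F₀ (∑ a ∈ s, v a) := fun i => by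
  rw [Finset.sum_apply]; exact sum_mem fun a ha => h a ha i

/-- The linear extension of a functional on coordinates in the subfield. -/
def extF {F₀ : Subfield F} (φ : (ι → F₀) →ₗ[F₀] F₀) : (ι → F) →ₗ[F] F :=
  ∑ i, ((φ (Pi.single i 1) : F₀) : F) • LinearMap.proj i

theorem extF_incl {F₀ : Subfield F} (φ : (ι → F₀) →ₗ[F₀] F₀) (a : ι → F₀) :
    extF φ (incl F₀ a) = ((φ a : F₀) : F) := by
  conv_rhs => rw [pi_eq_sum_univ' a, map_sum]
  simp only [extF, LinearMap.sum_apply, LinearMap.smul_apply, LinearMap.proj_apply, map_smul, smul_eq_mul,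
    AddSubmonoidClass.coe_finset_sum, Subfield.coe_mul]
  exact Finset.sum_congr rfl fun i _ => mul_comm _ _

variable {q : QuadraticForm F (ι → F)} {F₀ : Subfield F} {r : ℕ}

/-- An isometry mapping rational vectors to rational vectors. -/
def RatMap (F₀ : Subfield F) (g : orth q) : Prop :=
  ∀ x, IsRatVec F₀ x → IsRatVec F₀ ((g : V ≃ₗ[F] V) x)

/-- An isometry rational up to one scalar. -/
def SubF (F₀ : Subfield F) (g : orth q) : Prop :=
  ∃ c : F, c ≠ 0 ∧ ∀ x, IsRatVec F₀ x → IsRatVec F₀ (c • (g : V ≃ₗ[F] V) x)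

theorem RatMap.mul {g h : orth q} (hg : RatMap F₀ g) (hh : RatMap F₀ h) : RatMap F₀ (g * h) := fun x hx => by
  rw [orth_mul_apply]; exact hg _ (hh x hx)

theorem RatMap.subF {g : orth q} (hg : RatMap F₀ g) : SubF F₀ g :=
  ⟨1, one_ne_zero, fun x hx => by rw [one_smul]; exact hg x hx⟩

theorem scalar_mem {x : V} (hx : IsRatVec F₀ x) (hx0 : x ≠ 0) {c : F} (h : IsRatVec F₀ (c • x)) : c ∈ F₀ := by
  obtain ⟨i, hi⟩ := Function.ne_iff.mp hx0
  have := mul_mem (h i) (inv_mem (hx i))
  rwa [Pi.smul_apply, smul_eq_mul, mul_assoc, mul_inv_cancel₀ hi, mul_one] at this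

variable (H : OR q F₀ r)
include H

theorem OR.polar_rat {x y : V} (hx : IsRatVec F₀ x) (hy : IsRatVec F₀ y) : polar q x y ∈ F₀ := by
  rw [polar]; exact sub_mem (sub_mem (H.rat _ (isRat_add hx hy)) (H.rat _ hx)) (H.rat _ hy)

theorem OR.finrank_dim : Module.finrank F₀ F = r := by
  haveI := Fintype.ofFinite F
  haveI := Fintype.ofFinite F₀
  have h1 : Fintype.card F = Fintype.card F₀ ^ Module.finrank F₀ F := Module.card_eq_pow_finrank
  have h2 := H.card
  rw [Nat.card_eq_fintype_card, Nat.card_eq_fintype_card, h1] at h2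
  exact Nat.pow_right_injective (Fintype.one_lt_card (α := F₀)) h2

theorem OR.exists_new : ∃ c : F, c ∉ F₀ := by
  by_contra hc
  push Not at hc
  haveI := Fintype.ofFinite F
  haveI := Fintype.ofFinite F₀
  have h1 : Fintype.card F ≤ Fintype.card F₀ :=
    Fintype.card_le_of_injective (fun t => (⟨t, hc t⟩ : F₀)) fun a b h => congrArg Subtype.val h
  have h2 := H.card
  rw [Nat.card_eq_fintype_card, Nat.card_eq_fintype_card] at h2
  have h3 : Fintype.card F₀ ^ 1 < Fintype.card F₀ ^ r :=
    Nat.pow_lt_pow_right Fintype.one_lt_card H.prime.one_lt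
  rw [pow_one] at h3
  omega

theorem OR.mem_of_sq (hr : Odd r) {c : F} (hc : c * c ∈ F₀) : c ∈ F₀ := by
  haveI := Fintype.ofFinite F
  haveI := Fintype.ofFinite F₀
  by_cases h2 : (2 : F) = 0
  · haveI : CharP F 2 := CharTwo.of_one_ne_zero_of_two_eq_zero one_ne_zero h2
    haveI : Fact (Nat.Prime 2) := ⟨Nat.prime_two⟩
    exact mem_subfield_of_pow_char 2 F₀ (by rwa [pow_two])
  · refine mem_subfield_of_sq F₀ hr ?_ (by rw [← Nat.card_eq_fintype_card, H.card]) hc
    rw [Nat.card_eq_fintype_card]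
    refine Nat.odd_iff.2 (FiniteField.odd_card_of_char_ne_two fun hp => h2 ?_)
    haveI : CharP F₀ 2 := hp ▸ ringChar.charP F₀
    exact congrArg Subtype.val (CharTwo.two_eq_zero : (2 : F₀) = 0)

/-- The form on coordinates in the subfield. -/
def OR.q₀ : QuadraticForm F₀ (ι → F₀) :=
  QuadraticMap.ofPolar (fun a => ⟨q (incl F₀ a), H.rat _ (incl_rat a)⟩)
    (fun c a => Subtype.ext (by
      change q (incl F₀ (c • a)) = ((c * c : F₀) : F) * q (incl F₀ a)
      rw [map_smul, show (c • incl F₀ a : V) = (c : F) • incl F₀ a from rfl, QuadraticMap.map_smul]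
      simp))
    (fun a a' b => Subtype.ext (by
      simp only [polar, map_add, Subfield.coe_sub, Subfield.coe_add]
      exact polar_add_left q (incl F₀ a) (incl F₀ a') (incl F₀ b)))
    (fun c a b => Subtype.ext (by
      have h := polar_smul_left q (c : F) (incl F₀ a) (incl F₀ b)
      simp only [polar, map_add, map_smul, Subfield.coe_sub, smul_eq_mul, Subfield.coe_mul] at h ⊢
      exact h))

theorem OR.coe_q₀ (a : ι → F₀) : ((H.q₀ a : F₀) : F) = q (incl F₀ a) := rfl

theorem OR.coe_polar₀ (a b : ι → F₀) : ((polar H.q₀ a b : F₀) : F) = polar q (incl F₀ a) (incl F₀ b) := by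
  simp only [polar, Subfield.coe_sub, H.coe_q₀, map_add]

/-- A vector orthogonal to all rational vectors is zero. -/
theorem OR.eq_zero {w : V} (h : ∀ y, IsRatVec F₀ y → polar q y w = 0) : w = 0 := by
  refine H.nondeg.2 w fun x => ?_
  change polarBilin q x w = 0
  rw [pi_eq_sum_univ' x, map_sum, LinearMap.sum_apply]
  exact Finset.sum_eq_zero fun i _ => by
    rw [map_smul, LinearMap.smul_apply, polarBilin_apply_apply, h _ (isRat_single i), smul_zero]

theorem OR.nondeg₀ : (polarBilin H.q₀).Nondegenerate := by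
  have key : ∀ b : ι → F₀, (∀ a, polar H.q₀ a b = 0) → b = 0 := fun b hb => incl_injective F₀ (by
    rw [map_zero]
    refine H.eq_zero fun y hy => ?_
    obtain ⟨a, rfl⟩ := exists_incl hy
    rw [← H.coe_polar₀, hb a]; rfl)
  exact ⟨fun a ha => key a fun b => by rw [polar_comm]; exact ha b, fun b hb => key b hb⟩

/-- A functional on coordinates is a product with a rational vector. -/
theorem OR.exists_rep (φ : (ι → F₀) →ₗ[F₀] F₀) :
    ∃ y, IsRatVec F₀ y ∧ ∀ x : V, polar q y x = extF φ x := by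
  have hinj : Function.Injective (polarBilin H.q₀) :=
    LinearMap.ker_eq_bot.mp (LinearMap.separatingLeft_iff_ker_eq_bot.mp H.nondeg₀.1)
  obtain ⟨p, hp⟩ :=
    (LinearMap.injective_iff_surjective_of_finrank_eq_finrank Subspace.dual_finrank_eq.symm).mp hinj φ
  refine ⟨incl F₀ p, incl_rat p, fun x => ?_⟩
  have e : polarBilin q (incl F₀ p) = extF φ := LinearMap.pi_ext fun i c => by
    have e1 : (Pi.single i c : V) = c • incl F₀ (Pi.single i 1) := funext fun j => by
      simp [incl, Pi.single_apply, apply_ite ((↑) : F₀ → F)]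
    rw [e1, map_smul, map_smul, extF_incl, polarBilin_apply_apply, ← H.coe_polar₀, ← hp]
    rfl
  exact LinearMap.congr_fun e x

/-- A vector with rational products with all rational vectors is rational. -/
theorem OR.rat_of_polar {w : V} (h : ∀ y, IsRatVec F₀ y → polar q y w ∈ F₀) : IsRatVec F₀ w := by
  intro i
  obtain ⟨y, hy, hyw⟩ := H.exists_rep (LinearMap.proj i)
  have := h y hy
  rw [hyw] at this
  convert this using 1
  simp [extF, Pi.single_apply, apply_ite ((↑) : F₀ → F)]

/-- A functional vanishing on some rational vectors, taking the value one at a further one. -/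
theorem exists_functional_rat {k : ℕ} {s : Fin k → V} (hs : ∀ i, IsRatVec F₀ (s i)) {x : V}
    (hx : IsRatVec F₀ x) (hxs : x ∉ Submodule.span F (Set.range s)) :
    ∃ φ : (ι → F₀) →ₗ[F₀] F₀, extF φ x = 1 ∧ ∀ i, extF φ (s i) = 0 := by
  obtain ⟨a, rfl⟩ := exists_incl hx
  choose b hb using fun i => exists_incl (hs i)
  have ha : a ∉ Submodule.span F₀ (Set.range b) := fun ha => hxs (by
    obtain ⟨c, hc⟩ := (Submodule.mem_span_range_iff_exists_fun F₀).mp ha
    rw [← hc, map_sum]
    refine Submodule.sum_mem _ fun i _ => ?_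
    rw [map_smul, hb i]
    exact Submodule.smul_mem _ (c i : F) (Submodule.subset_span (Set.mem_range_self i)))
  obtain ⟨φ, h1, h2⟩ := Submodule.exists_dual_map_eq_bot_of_notMem ha inferInstance
  refine ⟨(φ a)⁻¹ • φ, ?_, fun i => ?_⟩
  · rw [extF_incl, LinearMap.smul_apply, smul_eq_mul, inv_mul_cancel₀ h1]; rfl
  · have h3 : φ (b i) = 0 := (Submodule.mem_bot F₀).mp
      (h2 ▸ Submodule.mem_map_of_mem (Submodule.subset_span (Set.mem_range_self i)))
    rw [← hb i, extF_incl, LinearMap.smul_apply, h3, smul_zero]; rfl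

/-- Rational singular vectors orthogonal to `k` vectors and outside the span of `l` vectors. -/
theorem OR.exists_sing {k l : ℕ} (s : Fin k → V) (hs : ∀ i, IsRatVec F₀ (s i)) (t : Fin l → V)
    (ht : ∀ i, IsRatVec F₀ (t i)) (h : k + l + 3 ≤ Fintype.card ι) :
    ∃ x, IsRatVec F₀ x ∧ q x = 0 ∧ x ≠ 0 ∧ (∀ i, polar q (s i) x = 0) ∧ x ∉ Submodule.span F (Set.range t) := by
  classical
  choose a ha using fun i => exists_incl (hs i)
  choose b hb using fun i => exists_incl (ht i)
  set S := Submodule.span F₀ (Set.range a)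
  set T := Submodule.span F₀ (Set.range b)
  set U := perp H.q₀ S with hU
  have h1 := finrank_perp_add H.nondeg₀ S
  rw [← hU, Module.finrank_pi] at h1
  obtain ⟨C, hC⟩ := Submodule.exists_isCompl ((T ⊓ U).comap U.subtype)
  have h2 := Submodule.finrank_add_eq_of_isCompl hC
  rw [(Submodule.comapSubtypeEquivOfLe (inf_le_right : T ⊓ U ≤ U)).finrank_eq] at h2
  have h3 := Submodule.finrank_mono (inf_le_left : T ⊓ U ≤ T)
  have h4 : Module.finrank F₀ T ≤ l := (finrank_range_le_card b).trans (Fintype.card_fin l).le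
  have h5 : Module.finrank F₀ S ≤ k := (finrank_range_le_card a).trans (Fintype.card_fin k).le
  have h6 : 3 ≤ Module.finrank F₀ C := by omega
  set Q₁ : QuadraticForm F₀ C := H.q₀.comp (U.subtype.comp C.subtype) with hQ₁
  obtain ⟨c, hc0, hc⟩ := @H4.exists_singular_of_three_le F₀ C _ _ _ _ _ Q₁ h6
  set x₀ : ι → F₀ := ((c : U) : ι → F₀) with hx₀
  have hxT : x₀ ∉ T := fun hm => hc0 (Subtype.ext
    (Submodule.disjoint_def.mp hC.disjoint (c : U) ⟨hm, (c : U).2⟩ c.2))
  have hx0 : x₀ ≠ 0 := fun h0 => hxT (h0 ▸ T.zero_mem)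
  refine ⟨incl F₀ x₀, incl_rat _, ?_, fun h0 => hx0 (incl_injective F₀ (h0.trans (map_zero _).symm)), fun i => ?_, ?_⟩
  · rw [← H.coe_q₀]; exact congrArg Subtype.val hc
  · rw [← ha i, ← H.coe_polar₀]
    have h6 : polar H.q₀ (a i) x₀ = 0 := (c : U).2 (a i) (Submodule.subset_span (Set.mem_range_self i))
    rw [h6]; rfl
  · intro hm
    obtain ⟨φ, h1', h2'⟩ := Submodule.exists_dual_map_eq_bot_of_notMem hxT inferInstance
    have : extF φ (incl F₀ x₀) = 0 := by
      have hle : Submodule.span F (Set.range t) ≤ LinearMap.ker (extF φ) := Submodule.span_le.mpr (by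
        rintro _ ⟨i, rfl⟩
        have h3 : φ (b i) = 0 := (Submodule.mem_bot F₀).mp
          (h2' ▸ Submodule.mem_map_of_mem (Submodule.subset_span (Set.mem_range_self i)))
        rw [SetLike.mem_coe, LinearMap.mem_ker, ← hb i, extF_incl, h3]; rfl)
      exact LinearMap.mem_ker.mp (hle hm)
    rw [extF_incl] at this
    exact h1' (Subtype.ext this)

/-- A rational vector orthogonal to `k` vectors and outside the span of `l` vectors. -/
theorem OR.exists_perp_not_mem {k l : ℕ} (s : Fin k → V) (hs : ∀ i, IsRatVec F₀ (s i)) (t : Fin l → V)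
    (ht : ∀ i, IsRatVec F₀ (t i)) (h : k + l < Fintype.card ι) :
    ∃ x, IsRatVec F₀ x ∧ (∀ i, polar q (s i) x = 0) ∧ x ∉ Submodule.span F (Set.range t) := by
  classical
  choose a ha using fun i => exists_incl (hs i)
  choose b hb using fun i => exists_incl (ht i)
  set S := Submodule.span F₀ (Set.range a)
  set T := Submodule.span F₀ (Set.range b)
  have h1 := finrank_perp_add H.nondeg₀ S
  rw [Module.finrank_pi] at h1
  have hS : Module.finrank F₀ S ≤ k := (finrank_range_le_card a).trans (Fintype.card_fin k).le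
  have hT : Module.finrank F₀ T ≤ l := (finrank_range_le_card b).trans (Fintype.card_fin l).le
  obtain ⟨x, hx, hxT⟩ : ∃ x ∈ perp H.q₀ S, x ∉ T := by
    by_contra hc
    push Not at hc
    have := Submodule.finrank_mono (show perp H.q₀ S ≤ T from hc)
    omega
  refine ⟨incl F₀ x, incl_rat x, fun i => ?_, fun hm => ?_⟩
  · rw [← ha i, ← H.coe_polar₀, mem_perp.mp hx _ (Submodule.subset_span (Set.mem_range_self i))]
    rfl
  · obtain ⟨ψ, hψ1, hψ2⟩ := Submodule.exists_dual_map_eq_bot_of_notMem hxT inferInstance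
    obtain ⟨c, hc⟩ := (Submodule.mem_span_range_iff_exists_fun F).mp hm
    have e := congrArg (extF ψ) hc
    rw [map_sum, extF_incl] at e
    refine hψ1 (Subtype.ext ?_)
    rw [← e]
    refine Finset.sum_eq_zero fun i _ => ?_
    have h3 : ψ (b i) = 0 := (Submodule.mem_bot F₀).mp
      (hψ2 ▸ Submodule.mem_map_of_mem (Submodule.subset_span (Set.mem_range_self i)))
    rw [map_smul, ← hb i, extF_incl, h3]
    exact smul_zero (c i)

/-- A non-zero rational singular vector orthogonal to given vectors. -/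
theorem OR.exists_sing_perp {k : ℕ} (s : Fin k → V) (hs : ∀ i, IsRatVec F₀ (s i)) (h : k + 3 ≤ Fintype.card ι) :
    ∃ x, IsRatVec F₀ x ∧ q x = 0 ∧ x ≠ 0 ∧ ∀ i, polar q (s i) x = 0 := by
  classical
  choose a ha using fun i => exists_incl (hs i)
  set S := Submodule.span F₀ (Set.range a)
  have h1 := finrank_perp_add H.nondeg₀ S
  rw [Module.finrank_pi] at h1
  have hS : Module.finrank F₀ S ≤ k := (finrank_range_le_card a).trans (Fintype.card_fin k).le
  obtain ⟨c, hc0, hc⟩ := @H4.exists_singular_of_three_le F₀ (perp H.q₀ S) _ _ _ _ _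
    (H.q₀.comp (perp H.q₀ S).subtype) (by omega)
  refine ⟨incl F₀ c.1, incl_rat _, by rw [← H.coe_q₀]; exact congrArg Subtype.val hc,
    fun h0 => hc0 (Subtype.ext (incl_injective F₀ (h0.trans (map_zero _).symm))), fun i => ?_⟩
  rw [← ha i, ← H.coe_polar₀]
  have h6 : polar H.q₀ (a i) c.1 = 0 := c.2 (a i) (Submodule.subset_span (Set.mem_range_self i))
  rw [h6]; rfl

/-- A rational singular partner orthogonal to given vectors. -/
theorem OR.partner {k : ℕ} {s : Fin k → V} (hs : ∀ i, IsRatVec F₀ (s i)) {x : V} (hx : IsRatVec F₀ x)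
    (hxx : q x = 0) (hxs : ∀ i, polar q (s i) x = 0) (hni : x ∉ Submodule.span F (Set.range s)) :
    ∃ y, IsRatVec F₀ y ∧ q y = 0 ∧ polar q x y = 1 ∧ ∀ i, polar q (s i) y = 0 := by
  obtain ⟨φ, h1, h2⟩ := exists_functional_rat H hs hx hni
  obtain ⟨p, hp, hpv⟩ := H.exists_rep φ
  have hxp : polar q x p = 1 := by rw [polar_comm, hpv, h1]
  refine ⟨p + (-q p) • x, isRat_add hp (isRat_smul (neg_mem (H.rat _ hp)) hx), (hypPair_of_polar hxx hxp).right,
    (hypPair_of_polar hxx hxp).pair, fun i => ?_⟩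
  rw [polar_add_right, polar_smul_right, hxs i, polar_comm, hpv, h2, smul_zero, add_zero]

/-- A rational hyperbolic pair orthogonal to given vectors. -/
theorem OR.exists_pair {k : ℕ} (s : Fin k → V) (hs : ∀ i, IsRatVec F₀ (s i)) (h : k + k + 3 ≤ Fintype.card ι) :
    ∃ e f, IsRatVec F₀ e ∧ IsRatVec F₀ f ∧ HypPair q e f ∧ (∀ i, polar q (s i) e = 0) ∧
      ∀ i, polar q (s i) f = 0 := by
  obtain ⟨e, he, hee, -, hes, hni⟩ := H.exists_sing s hs s hs h
  obtain ⟨f, hf, hff, hef, hfs⟩ := H.partner hs he hee hes hni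
  exact ⟨e, f, he, hf, ⟨hee, hff, hef⟩, hes, hfs⟩

/-- A rational partner of a non-zero rational singular vector. -/
theorem OR.partner₁ {x : V} (hx : IsRatVec F₀ x) (hxx : q x = 0) (hx0 : x ≠ 0) :
    ∃ y, IsRatVec F₀ y ∧ HypPair q x y := by
  obtain ⟨y, hy, hyy, hxy, -⟩ := H.partner (s := (Fin.elim0 : Fin 0 → V)) (fun i => i.elim0) hx hxx (fun i => i.elim0)
    (by simpa using hx0)
  exact ⟨y, hy, hxx, hyy, hxy⟩

/-- A rational totally singular line orthogonal to given vectors. -/
theorem OR.exists_line {k : ℕ} (s : Fin k → V) (hs : ∀ i, IsRatVec F₀ (s i)) (h : k + 5 ≤ Fintype.card ι) :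
    ∃ p p', IsRatVec F₀ p ∧ IsRatVec F₀ p' ∧ q p = 0 ∧ q p' = 0 ∧ polar q p p' = 0 ∧ p ≠ 0 ∧
      p' ∉ Submodule.span F {p} ∧ (∀ i, polar q (s i) p = 0) ∧ ∀ i, polar q (s i) p' = 0 := by
  obtain ⟨p, hp, hpp, hp0, hps, -⟩ := H.exists_sing s hs (Fin.elim0 : Fin 0 → V) (fun i => i.elim0) (by omega)
  obtain ⟨p', hp', hp'p', -, hs', hni⟩ := H.exists_sing (Fin.cons p s : Fin (k + 1) → V)
    (fun i => by refine Fin.cases ?_ ?_ i <;> simp [hp, hs]) ![p] (fun i => by fin_cases i; exact hp) (by omega)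
  refine ⟨p, p', hp, hp', hpp, hp'p', by simpa using hs' 0, hp0, by simpa using hni, hps, fun i => ?_⟩
  simpa using hs' i.succ

/-- Rational vectors orthogonal to few given ones are combinations of singular ones. -/
theorem OR.rat_span {k : ℕ} (s : Fin k → V) (hs : ∀ i, IsRatVec F₀ (s i)) (h : k + k + 3 ≤ Fintype.card ι)
    {p : V → Prop} (hadd : ∀ a b, p a → p b → p (a + b)) (hsmul : ∀ c, c ∈ F₀ → ∀ a, p a → p (c • a))
    (hsing : ∀ z, IsRatVec F₀ z → q z = 0 → (∀ i, polar q (s i) z = 0) → p z) {x : V} (hx : IsRatVec F₀ x)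
    (hxs : ∀ i, polar q (s i) x = 0) : p x := by
  obtain ⟨e, f, he, hf, hp, hes, hfs⟩ := H.exists_pair s hs h
  set w := x - polar q f x • e - polar q e x • f with hw
  have hwr : IsRatVec F₀ w :=
    isRat_sub (isRat_sub hx (isRat_smul (H.polar_rat hf hx) he)) (isRat_smul (H.polar_rat he hx) hf)
  have hws : ∀ i, polar q (s i) w = 0 := fun i => by
    rw [hw, polar_sub_right, polar_sub_right, polar_smul_right, polar_smul_right, hxs, hes, hfs]; simp
  have hwp : w ∈ pperp q e f := hp.decomp x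
  have hpe := hsing e he hp.left hes
  have hpf := hsing f hf hp.right hfs
  have hlift := hsing (e + (-q w) • f + w) (isRat_add (isRat_add he (isRat_smul (neg_mem (H.rat _ hwr)) hf)) hwr)
    (hp.singular_lift hwp).1 fun i => by
      rw [polar_add_right, polar_add_right, polar_smul_right, hes, hfs, hws]; simp
  have e1 : x = (e + (-q w) • f + w) + ((polar q f x - 1) • e + (polar q e x + q w) • f) := by
    rw [hw]; module
  rw [e1]
  exact hadd _ _ hlift (hadd _ _ (hsmul _ (sub_mem (H.polar_rat hf hx) (one_mem _)) _ hpe)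
    (hsmul _ (add_mem (H.polar_rat he hx) (H.rat _ hwr)) _ hpf))

theorem OR.ratMap_eich {e a : V} (he : IsRatVec F₀ e) (ha : IsRatVec F₀ a) : RatMap F₀ (eich q e a) := by
  intro x hx
  by_cases h : q e = 0 ∧ polar q e a = 0
  · rw [eich_apply h.1 h.2]
    exact isRat_sub (isRat_sub (isRat_add hx (isRat_smul (H.polar_rat he hx) ha))
      (isRat_smul (H.polar_rat ha hx) he)) (isRat_smul (mul_mem (H.rat _ ha) (H.polar_rat he hx)) he)
  · rw [eich, dif_neg h]; exact hx

theorem OR.ratMap_refl {v : V} (hv : IsRatVec F₀ v) : RatMap F₀ (refl q v) := fun x hx => by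
  rw [refl_apply]
  exact isRat_sub hx (isRat_smul (mul_mem (inv_mem (H.rat _ hv)) (H.polar_rat hv hx)) hv)

/-- An element with a rational multiple that fixes a rational vector, or is an involution, is rational. -/
theorem OR.ratMap_of_invol (hr : Odd r) {g : orth q} (hg : SubF F₀ g) (hgg : g * g = 1) : RatMap F₀ g := by
  obtain ⟨c, hc, h⟩ := hg
  haveI : Nonempty ι := Fintype.card_pos_iff.mp (by have := H.big; omega)
  set i := Classical.arbitrary ι
  set x : V := Pi.single i 1
  have h2 := h _ (h x (isRat_single i))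
  rw [map_smul, ← orth_mul_apply g g, hgg, smul_smul] at h2
  have h3 : c ∈ F₀ := H.mem_of_sq hr
    (scalar_mem (isRat_single i) (by simp) h2)
  intro y hy
  have := isRat_smul (inv_mem h3) (h y hy)
  rwa [smul_smul, inv_mul_cancel₀ hc, one_smul] at this

end Cfsg.Agent.H76.O8
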