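import Cfsg.Agent.H76.O8.OrthSubOdd
import Cfsg.Agent.H98.InvolutionPair

set_option autoImplicit false
set_option linter.unusedSectionVars false

/-!
Without new scalars every element of an overgroup lying in `Ω` is rational up to a scalar.
-/

namespace Cfsg.Agent.H76.O8

open Cfsg.Agent.H98

open Cfsg.Agent.H5 QuadraticMap

variable {ι : Type} [Fintype ι] [DecidableEq ι] {F : Type*} [Field F] [Finite F]

local notation "V" => (ι → F)

variable {q : QuadraticForm F (ι → F)} {F₀ : Subfield F} {r : ℕ}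

/-- The product of two reflections. -/
def dRefl (q : QuadraticForm F (ι → F)) (u v : ι → F) : orth q := refl q u * refl q v

theorem finite_orth : Finite (orth q) := by
  haveI : Finite (ι → F) := Pi.finite
  exact Finite.of_injective (fun (g : orth q) (x : ι → F) => (g : (ι → F) ≃ₗ[F] (ι → F)) x) fun g h e =>
    orth_ext fun x => congrFun e x

theorem dRefl_apply {u v : ι → F} (huv : polar q u v = 0) (x : ι → F) :
    (dRefl q u v : (ι → F) ≃ₗ[F] (ι → F)) x =
      x - ((q u)⁻¹ * polar q u x) • u - ((q v)⁻¹ * polar q v x) • v := by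
  rw [dRefl, orth_mul_apply, refl_apply, refl_apply, polar_sub_right, polar_smul_right, huv, smul_zero, sub_zero]
  abel

theorem dRefl_sq {u v : ι → F} (huv : polar q u v = 0) : dRefl q u v * dRefl q u v = 1 := by
  have h : refl q u * refl q v = refl q v * refl q u := by
    have := refl_conj (refl q u) v
    rw [refl_apply_of_ortho huv, refl_inv] at this
    calc refl q u * refl q v = refl q u * refl q v * (refl q u * refl q u) := by rw [refl_mul_self, mul_one]
      _ = refl q u * refl q v * refl q u * refl q u := by rw [mul_assoc _ (refl q u) (refl q u)]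
      _ = refl q v * refl q u := by rw [this]
  rw [dRefl]
  calc refl q u * refl q v * (refl q u * refl q v) = refl q u * refl q v * (refl q v * refl q u) := by rw [← h]
    _ = refl q u * (refl q v * refl q v) * refl q u := by simp only [mul_assoc]
    _ = 1 := by rw [refl_mul_self, mul_one, refl_mul_self]

theorem conj_dRefl (g : orth q) (u v : ι → F) :
    g * dRefl q u v * g⁻¹ = dRefl q ((g : (ι → F) ≃ₗ[F] (ι → F)) u) ((g : (ι → F) ≃ₗ[F] (ι → F)) v) := by
  rw [dRefl, dRefl, ← refl_conj, ← refl_conj]; group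

theorem apply_of_commute {g h : orth q} (hc : g * h = h * g) (x : ι → F) :
    (g : (ι → F) ≃ₗ[F] (ι → F)) ((h : (ι → F) ≃ₗ[F] (ι → F)) x) =
      (h : (ι → F) ≃ₗ[F] (ι → F)) ((g : (ι → F) ≃ₗ[F] (ι → F)) x) := by
  rw [← orth_mul_apply, hc, orth_mul_apply]

theorem pow_apply_fixed {g : orth q} {x : ι → F} (h : (g : (ι → F) ≃ₗ[F] (ι → F)) x = x) (k : ℕ) :
    ((g ^ k : orth q) : (ι → F) ≃ₗ[F] (ι → F)) x = x := by
  induction k with
  | zero => simp
  | succ k ih => rw [pow_succ, orth_mul_apply, h, ih]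

/-- Independent rational vectors spanning the span of given rational vectors. -/
theorem exists_rat_indep {α : Type*} [Finite α] (t : α → ι → F) (ht : ∀ a, IsRatVec F₀ (t a)) :
    ∃ (k : ℕ) (s : Fin k → ι → F), (∀ i, IsRatVec F₀ (s i)) ∧ LinearIndependent F s ∧
      Submodule.span F (Set.range s) = Submodule.span F (Set.range t) := by
  classical
  obtain ⟨b, hb, hspan, hli⟩ := exists_linearIndependent F (Set.range t)
  haveI : Fintype b := ((Set.finite_range t).subset hb).fintype
  refine ⟨Fintype.card b, Subtype.val ∘ (Fintype.equivFin b).symm, fun i => ?_,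
    hli.comp _ (Fintype.equivFin b).symm.injective, ?_⟩
  · obtain ⟨a, ha⟩ := hb ((Fintype.equivFin b).symm i).2
    rw [Function.comp_apply, ← ha]; exact ht a
  · rw [← hspan, Set.range_comp, (Fintype.equivFin b).symm.surjective.range_eq, Set.image_univ, Subtype.range_coe]

/-- Independent rational vectors spanning the residual space of a rational isometry. -/
theorem exists_resid_basis {g : orth q} (hg : RatMap F₀ g) :
    ∃ s : Fin (rk g) → ι → F, (∀ i, IsRatVec F₀ (s i)) ∧ LinearIndependent F s ∧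
      Submodule.span F (Set.range s) = resid g := by
  obtain ⟨k, s, hs, hli, hspan⟩ := exists_rat_indep (F₀ := F₀) (fun l => dLin g (Pi.single l (1 : F)))
    (fun l => by rw [dLin_apply]; exact isRat_sub (hg _ (isRat_single l)) (isRat_single l))
  have e : Submodule.span F (Set.range fun l => dLin g (Pi.single l (1 : F))) = resid g := by
    refine le_antisymm (Submodule.span_le.mpr (by rintro _ ⟨l, rfl⟩; exact ⟨_, rfl⟩)) ?_
    rintro _ ⟨x, rfl⟩
    rw [pi_eq_sum_univ' x, map_sum]
    exact Submodule.sum_mem _ fun l _ => by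
      rw [map_smul]; exact Submodule.smul_mem _ _ (Submodule.subset_span ⟨l, rfl⟩)
  rw [e] at hspan
  have hk : k = rk g := by
    have := finrank_span_eq_card hli
    rw [hspan, Fintype.card_fin] at this
    exact this.symm
  subst hk
  exact ⟨s, hs, hli, hspan⟩

variable (H : OR q F₀ r)
include H

theorem OR.dRefl_mem_comm {u v : V} (hu : q u ≠ 0) (h : q v = q u) : dRefl q u v ∈ commutator (orth q) := by
  haveI : Finite (ι → F) := Pi.finite
  have := (list_prod_mem_commutator_iff H.nondeg (Or.inr (by have := H.finrank_V; omega)) (vs := [u, v])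
    (by simp [hu, h])).mpr ⟨by simp, ⟨q u, by simp [h]⟩⟩
  simpa [dRefl] using this

theorem OR.two_le_rk {g : orth q} (hg : g ∈ commutator (orth q)) (h1 : g ≠ 1) : 2 ≤ rk g := by
  haveI : Finite (ι → F) := Pi.finite
  have hd := ((mem_commutator_iff H.nondeg (Or.inr (by have := H.finrank_V; omega))).mp hg).1
  by_contra hc
  rcases Nat.lt_or_ge (rk g) 1 with h | h
  · exact h1 (eq_one_of_rk_eq_zero (by omega))
  · rw [dick, show rk g = 1 by omega, pow_one] at hd
    exact absurd hd (by decide)

theorem OR.fixed_of_perp {g : orth q} {k : ℕ} {s : Fin k → V} (hs : Submodule.span F (Set.range s) = resid g)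
    {x : V} (hx : ∀ i, polar q (s i) x = 0) : (g : V ≃ₗ[F] V) x = x := by
  rw [← mem_fixer, fixer_eq_perp_resid H.nondeg, ← hs]
  intro w hw
  obtain ⟨c, rfl⟩ := (Submodule.mem_span_range_iff_exists_fun F).mp hw
  change polarBilin q (∑ i, c i • s i) x = 0
  rw [map_sum, LinearMap.sum_apply]
  exact Finset.sum_eq_zero fun i _ => by rw [map_smul, LinearMap.smul_apply, polarBilin_apply_apply, hx, smul_zero]

theorem OR.resid_le {g : orth q} {k : ℕ} {s : Fin k → V}
    (h : ∀ x, (∀ i, polar q (s i) x = 0) → (g : V ≃ₗ[F] V) x = x) : rk g ≤ k := by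
  have h1 : perp q (Submodule.span F (Set.range s)) ≤ fixer g := fun x hx =>
    mem_fixer.mpr (h x fun i => hx _ (Submodule.subset_span (Set.mem_range_self i)))
  have h2 : resid g ≤ Submodule.span F (Set.range s) := by
    rw [resid_eq_perp_fixer H.nondeg, ← perp_perp H.nondeg (Submodule.span F (Set.range s))]
    exact perp_anti h1
  exact (Submodule.finrank_mono h2).trans ((finrank_range_le_card s).trans (Fintype.card_fin k).le)

/-- A rational singular vector in the span of at least three independent rational vectors. -/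
theorem OR.sing_in {k : ℕ} {s : Fin k → V} (hs : ∀ i, IsRatVec F₀ (s i)) (hli : LinearIndependent F s)
    (hk : 3 ≤ k) : ∃ x, IsRatVec F₀ x ∧ q x = 0 ∧ x ≠ 0 ∧ x ∈ Submodule.span F (Set.range s) := by
  choose a ha using fun i => exists_incl (hs i)
  set L : (Fin k → F₀) →ₗ[F₀] (ι → F₀) := Fintype.linearCombination F₀ a with hL
  obtain ⟨c, hc0, hc⟩ := @H4.exists_singular_of_three_le F₀ (Fin k → F₀) _ _ _ _ _ (H.q₀.comp L)
    (by rw [Module.finrank_pi, Fintype.card_fin]; exact hk)
  have e : incl F₀ (L c) = ∑ i, ((c i : F₀) : F) • s i := by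
    rw [hL, Fintype.linearCombination_apply, map_sum]
    exact Finset.sum_congr rfl fun i _ => by rw [map_smul, ha i]; rfl
  refine ⟨incl F₀ (L c), incl_rat _, by rw [← H.coe_q₀]; exact congrArg Subtype.val hc, fun h0 => hc0 ?_, ?_⟩
  · rw [e] at h0
    exact funext fun i => Subtype.ext (Fintype.linearIndependent_iff.mp hli _ h0 i)
  · rw [e]; exact Submodule.sum_mem _ fun i _ => Submodule.smul_mem _ _ (Submodule.subset_span (Set.mem_range_self i))

variable {M : Subgroup (orth q)} (hM : Over F₀ M) (hns : NoNew F₀ M)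
include hM hns

/-- Few extension degrees: a singular kernel vector does it. -/
theorem OR.subF_of_small (hr : 2 * r + 3 ≤ Fintype.card ι) {g : orth q} (hg : g ∈ M) : SubF F₀ g := by
  obtain ⟨a, b, ha, hb, haa, hbb, hab, ha0, hba, -, -⟩ := H.exists_line (Fin.elim0 : Fin 0 → V) (fun i => i.elim0)
    (by have := H.big; omega)
  let L : (ι → F₀) →ₗ[F₀] F × F :=
    (((polarBilin q).flip ((g : V ≃ₗ[F] V) a)).restrictScalars F₀ |>.comp (incl F₀)).prod
      (((polarBilin q).flip ((g : V ≃ₗ[F] V) b)).restrictScalars F₀ |>.comp (incl F₀))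
  have h1 := LinearMap.finrank_range_add_finrank_ker L
  have h2 := Submodule.finrank_le (LinearMap.range L)
  rw [Module.finrank_prod, H.finrank_dim] at h2
  rw [Module.finrank_pi] at h1
  have h3 : 3 ≤ Module.finrank F₀ (LinearMap.ker L) := by omega
  obtain ⟨c, hc0, hc⟩ := @H4.exists_singular_of_three_le F₀ (LinearMap.ker L) _ _ _ _ _
    (H.q₀.comp (LinearMap.ker L).subtype) h3
  have h4 : L c.1 = 0 := c.2
  exact H.criterion hM hns hg ha hb haa hbb hab ha0 hba (incl_rat c.1)
    (fun h0 => hc0 (Subtype.ext (incl_injective F₀ (h0.trans (map_zero _).symm))))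
    (by rw [← H.coe_q₀]; exact congrArg Subtype.val hc) (congrArg Prod.fst h4) (congrArg Prod.snd h4)

/-- Characteristic two. -/
theorem OR.subF_even (h2 : (2 : F) = 0) (hr : Odd r) {g : orth q} (hg : g ∈ M) : SubF F₀ g := by
  haveI := finite_orth (q := q)
  haveI : CharP F 2 := CharTwo.of_one_ne_zero_of_two_eq_zero one_ne_zero h2
  obtain ⟨e₁, f₁, he₁, hf₁, p₁, -, -⟩ := H.exists_pair (Fin.elim0 : Fin 0 → V) (fun i => i.elim0)
    (by have := H.big; omega)
  obtain ⟨a₁, h₁, ha₁, hh₁, p₂, a₁s, h₁s⟩ := H.exists_pair ![e₁, f₁] (fun i => by fin_cases i <;> assumption)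
    (by have := H.big; omega)
  obtain ⟨e₂, he₂, hee₂, he₂0, e₂s⟩ := H.exists_sing_perp ![e₁, f₁, a₁, h₁]
    (fun i => by fin_cases i <;> assumption) (by have := H.big; omega)
  have hni : e₂ ∉ Submodule.span F (Set.range ![e₁, f₁, a₁, h₁]) := by
    intro hm
    obtain ⟨c, hc⟩ := (Submodule.mem_span_range_iff_exists_fun F).mp hm
    simp only [Fin.sum_univ_four, Matrix.cons_val_zero, Matrix.cons_val_one, Matrix.cons_val] at hc
    have k0 : polar q e₁ a₁ = 0 := by simpa using a₁s 0
    have k1 : polar q f₁ a₁ = 0 := by simpa using a₁s 1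
    have k2 : polar q e₁ h₁ = 0 := by simpa using h₁s 0
    have k3 : polar q f₁ h₁ = 0 := by simpa using h₁s 1
    have c1 : c 1 = 0 := by
      have h := e₂s 0
      simp only [Matrix.cons_val_zero] at h
      rw [← hc] at h
      simpa [polar_add_right, polar_smul_right, polar_self', p₁.left, p₁.pair, k0, k2] using h
    have c0 : c 0 = 0 := by
      have h : polar q f₁ e₂ = 0 := by simpa using e₂s 1
      rw [← hc] at h
      simpa [polar_add_right, polar_smul_right, polar_self', p₁.right, p₁.symm.pair, k1, k3] using h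
    have c3 : c 3 = 0 := by
      have h : polar q a₁ e₂ = 0 := by simpa using e₂s 2
      rw [← hc] at h
      simpa [polar_add_right, polar_smul_right, polar_self', p₂.left, p₂.pair, polar_comm q a₁ e₁,
        polar_comm q a₁ f₁, k0, k1] using h
    have c2 : c 2 = 0 := by
      have h : polar q h₁ e₂ = 0 := by simpa using e₂s 3
      rw [← hc] at h
      simpa [polar_add_right, polar_smul_right, polar_self', p₂.right, p₂.symm.pair, polar_comm q h₁ e₁,
        polar_comm q h₁ f₁, k2, k3] using h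
    exact he₂0 (by rw [← hc, c0, c1, c2, c3]; simp)
  obtain ⟨f₂, hf₂, hff₂, hef₂, f₂s⟩ := H.partner (fun i => by fin_cases i <;> assumption) he₂ hee₂ e₂s hni
  have p₃ : HypPair q e₂ f₂ := ⟨hee₂, hff₂, hef₂⟩
  obtain ⟨a₂, ha₂, a₂s, a₂n⟩ := H.exists_perp_not_mem ![e₁, f₁, a₁, h₁, e₂]
    (fun i => by fin_cases i <;> assumption) ![e₂] (fun i => by fin_cases i; exact he₂) (by have := H.big; omega)
  have q1 : polar q e₁ a₁ = 0 := by simpa using a₁s 0
  have q2 : polar q f₁ a₁ = 0 := by simpa using a₁s 1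
  have q3 : polar q e₁ h₁ = 0 := by simpa using h₁s 0
  have q4 : polar q e₁ e₂ = 0 := by simpa using e₂s 0
  have q5 : polar q f₁ e₂ = 0 := by simpa using e₂s 1
  have q6 : polar q a₁ e₂ = 0 := by simpa using e₂s 2
  have q7 : polar q h₁ e₂ = 0 := by simpa using e₂s 3
  have q8 : polar q e₁ f₂ = 0 := by simpa using f₂s 0
  have q9 : polar q a₁ f₂ = 0 := by simpa using f₂s 2
  have q10 : polar q e₁ a₂ = 0 := by simpa using a₂s 0
  have q11 : polar q f₁ a₂ = 0 := by simpa using a₂s 1
  have q12 : polar q a₁ a₂ = 0 := by simpa using a₂s 2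
  have q13 : polar q h₁ a₂ = 0 := by simpa using a₂s 3
  have q14 : polar q e₂ a₂ = 0 := by simpa using a₂s 4
  set A := eich q e₁ a₁ with hA
  set B := eich q e₂ a₂ with hB
  have hAv : ∀ x, (A : V ≃ₗ[F] V) x = x + polar q e₁ x • a₁ - polar q a₁ x • e₁ :=
    eich_line_apply p₁.left p₂.left q1
  have hBv : ∀ x, (B : V ≃ₗ[F] V) x = x + polar q e₂ x • a₂ - polar q a₂ x • e₂ - (q a₂ * polar q e₂ x) • e₂ :=
    eich_apply p₃.left q14
  set i := A * B with hi
  have hiv : ∀ x, (i : V ≃ₗ[F] V) x =
      x + polar q e₂ x • a₂ - polar q a₂ x • e₂ - (q a₂ * polar q e₂ x) • e₂ + polar q e₁ x • a₁ -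
        polar q a₁ x • e₁ := fun x => by
    rw [hi, orth_mul_apply A B, hAv, hBv]
    simp only [polar_add_right, polar_sub_right, polar_smul_right, q4, q6, q10, q12]
    module
  have hsq : ∀ e a : V, q e = 0 → polar q e a = 0 → eich q e a * eich q e a = 1 := fun e a he ha => by
    rw [eich_mul he ha ha, ← two_smul F, h2, zero_smul, eich_zero]
  have hAB : A * B = B * A := orth_ext fun x => by
    rw [orth_mul_apply A B, orth_mul_apply B A, hAv, hBv, hBv, hAv]
    simp only [polar_add_right, polar_sub_right, polar_smul_right, polar_comm q e₂ e₁, polar_comm q e₂ a₁,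
      polar_comm q a₂ e₁, polar_comm q a₂ a₁, q4, q6, q10, q12]
    module
  have hii : i * i = 1 := by
    calc A * B * (A * B) = A * B * (B * A) := by rw [← hAB]
      _ = A * (B * B) * A := by simp only [mul_assoc]
      _ = 1 := by rw [hsq _ _ p₃.left q14, mul_one, hsq _ _ p₁.left q1]
  have hiM : i ∈ M := mul_mem (hM _ (H.eich_comm_mem _ _) (H.ratMap_eich he₁ ha₁))
    (hM _ (H.eich_comm_mem _ _) (H.ratMap_eich he₂ ha₂))
  set Y : V ≃ₗ[F] V := (g : V ≃ₗ[F] V) with hY
  have gee : q (Y e₁) = 0 := by rw [hY, orth_map, p₁.left]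
  have gaa : q (Y a₁) = 0 := by rw [hY, orth_map, p₂.left]
  have gea : polar q (Y e₁) (Y a₁) = 0 := by rw [hY, orth_polar, q1]
  set j := eich q (Y e₁) (Y a₁) with hj
  have hjM : j ∈ M := ((H.rootIn_rat hM he₁ ha₁ p₁.left q1).conj hg).2.2
  have hjj : j * j = 1 := hsq _ _ gee gea
  have hjv : ∀ x, dLin j x = polar q (Y e₁) x • Y a₁ - polar q (Y a₁) x • Y e₁ := fun x => by
    rw [dLin_apply, hj, eich_line_apply gee gaa gea]; module
  have hjmem : ∀ x, dLin j x ∈ Submodule.span F ({Y e₁, Y a₁} : Set V) := fun x => by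
    rw [hjv]
    exact Submodule.sub_mem _ (Submodule.smul_mem _ _ (Submodule.subset_span (by simp)))
      (Submodule.smul_mem _ _ (Submodule.subset_span (by simp)))
  have d1 : dLin i (-h₁) = e₁ := by
    rw [map_neg, dLin_apply, hiv, polar_comm q e₂ h₁, q7, polar_comm q a₂ h₁, q13, q3, p₂.pair]; module
  have d2 : dLin i f₁ = a₁ := by
    rw [dLin_apply, hiv, polar_comm q e₂ f₁, q5, polar_comm q a₂ f₁, q11, p₁.pair, polar_comm q a₁ f₁, q2]; module
  rcases involution_pair hii hjj with hconj | ⟨k, hk1, hksq, hki, hkj⟩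
  · exfalso
    obtain ⟨c, hc⟩ := isConj_iff.mp hconj
    set S := Submodule.span F ({Y e₁, Y a₁} : Set V)
    have hS : ∀ x, (c : V ≃ₗ[F] V) (dLin i x) ∈ S := fun x => by
      have hci : c * i = j * c := by rw [← hc]; group
      have := hjmem ((c : V ≃ₗ[F] V) x)
      rw [dLin_apply, ← orth_mul_apply j c, ← hci, orth_mul_apply c i, ← map_sub, ← dLin_apply] at this
      exact this
    set w := dLin i f₂ with hw
    have hwv : w = a₂ - polar q a₂ f₂ • e₂ - q a₂ • e₂ := by
      rw [hw, dLin_apply, hiv, p₃.pair, q8, q9]; module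
    let vec : Fin 3 → V := fun t => (c : V ≃ₗ[F] V) (![e₁, a₁, w] t)
    have hli : LinearIndependent F vec := by
      rw [Fintype.linearIndependent_iff]
      intro s hs
      have hs0 : s 0 • e₁ + s 1 • a₁ + s 2 • w = 0 := (c : V ≃ₗ[F] V).injective (by
        rw [map_add, map_add, map_smul, map_smul, map_smul, map_zero]
        simpa [vec, Fin.sum_univ_three] using hs)
      have s0 : s 0 = 0 := by
        have := congrArg (fun v => polar q f₁ v) hs0
        simpa [hwv, polar_add_right, polar_sub_right, polar_smul_right, p₁.symm.pair, q2, q5, q11] using this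
      have s1 : s 1 = 0 := by
        have := congrArg (fun v => polar q h₁ v) hs0
        simpa [hwv, polar_add_right, polar_sub_right, polar_smul_right, p₂.symm.pair, polar_comm q h₁ e₁, q3, q7,
          q13] using this
      have s2 : s 2 = 0 := by
        rw [s0, s1, zero_smul, zero_smul, zero_add, zero_add, smul_eq_zero] at hs0
        refine hs0.resolve_right fun h0 => a₂n ?_
        rw [hwv, sub_sub, sub_eq_zero, ← add_smul] at h0
        rw [h0]
        exact Submodule.smul_mem _ _ (Submodule.subset_span ⟨0, rfl⟩)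
      intro t; fin_cases t <;> assumption
    have hsub : Submodule.span F (Set.range vec) ≤ S := Submodule.span_le.mpr (by
      rintro _ ⟨t, rfl⟩
      fin_cases t
      · change (c : V ≃ₗ[F] V) e₁ ∈ S
        rw [← d1]; exact hS (-h₁)
      · change (c : V ≃ₗ[F] V) a₁ ∈ S
        rw [← d2]; exact hS f₁
      · exact hS f₂)
    have h3 := Submodule.finrank_mono hsub
    rw [finrank_span_eq_card hli, Fintype.card_fin] at h3
    classical
    have h4 := finrank_span_finset_le_card (R := F) ({Y e₁, Y a₁} : Finset V)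
    rw [Finset.coe_insert, Finset.coe_singleton] at h4
    have h6 : Module.finrank F S ≤ 2 := le_trans h4 (Finset.card_le_two (a := Y e₁) (b := Y a₁))
    omega
  set z := (i * j) ^ k with hzdef
  have hzM : z ∈ M := pow_mem (mul_mem hiM hjM) k
  have hzC : z ∈ commutator (orth q) :=
    pow_mem (mul_mem (mul_mem (H.eich_comm_mem _ _) (H.eich_comm_mem _ _)) (H.eich_comm_mem _ _)) k
  have he₁i : ∀ x, polar q e₁ (dLin i x) = 0 := fun x => by
    rw [dLin_apply, hiv]
    simp [polar_add_right, polar_sub_right, polar_smul_right, polar_self', p₁.left, q1, q4, q10]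
  have hzS : SubF F₀ z := by
    refine H.criterion hM hns hzM he₁ ha₁ p₁.left p₂.left q1 p₁.ne_zero (fun h => ?_) he₁ p₁.ne_zero p₁.left ?_ ?_
    · obtain ⟨t, ht⟩ := Submodule.mem_span_singleton.mp h
      have := p₂.pair
      rw [← ht, polar_smul_left, q3, smul_zero] at this
      exact zero_ne_one this
    · conv_lhs => arg 3; rw [← d1]
      rw [dLin_apply, map_sub, apply_of_commute hki, ← dLin_apply]; exact he₁i _
    · conv_lhs => arg 3; rw [← d2]
      rw [dLin_apply, map_sub, apply_of_commute hki, ← dLin_apply]; exact he₁i _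
  have hzr := H.ratMap_of_invol hr hzS hksq
  have hzsym : ∀ v w : V, polar q ((z : V ≃ₗ[F] V) v) w = polar q v ((z : V ≃ₗ[F] V) w) := fun v w => by
    rw [← orth_polar z ((z : V ≃ₗ[F] V) v) w, ← orth_mul_apply, hksq]; rfl
  have hiso : ∀ v w : V, v ∈ resid z → w ∈ resid z → polar q v w = 0 := by
    rintro _ _ ⟨v, rfl⟩ ⟨w, rfl⟩
    rw [dLin_apply, dLin_apply, polar_sub_left, polar_sub_right, polar_sub_right, orth_polar, hzsym]
    linear_combination (polar q v w - polar q v ((z : V ≃ₗ[F] V) w)) * h2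
  obtain ⟨s, hs, hli, hspan⟩ := exists_resid_basis (F₀ := F₀) hzr
  have hrk := H.two_le_rk hzC hk1
  have hsR : ∀ l, s l ∈ resid z := fun l => hspan ▸ Submodule.subset_span (Set.mem_range_self l)
  have hcomb : ∀ a b : V, IsRatVec F₀ a → IsRatVec F₀ b → a ∈ resid z → b ∈ resid z → q a ≠ 0 →
      ∃ t : F, t ∈ F₀ ∧ q (b + t • a) = 0 := by
    intro a b ha hb hma hmb hqa
    obtain ⟨t, ht⟩ := H4.exists_sq_eq (F := F₀) (Subtype.ext h2) ⟨-q b / q a, div_mem (neg_mem (H.rat _ hb)) (H.rat _ ha)⟩
    refine ⟨t, t.2, ?_⟩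
    rw [map_add_smul, hiso b a hmb hma, ← pow_two, show (t : F) ^ 2 = -q b / q a from congrArg Subtype.val ht,
      div_mul_cancel₀ _ hqa]
    ring
  obtain ⟨u, x, hu, huR, huu, hu0, hx, hxx, hxu, hxR⟩ : ∃ u x : V, IsRatVec F₀ u ∧ u ∈ resid z ∧ q u = 0 ∧ u ≠ 0 ∧
      IsRatVec F₀ x ∧ q x = 0 ∧ x ∉ Submodule.span F {u} ∧ ∀ l, polar q (s l) x = 0 := by
    have hi0 := Fintype.linearIndependent_iff.mp hli
    have hne : ∀ l m : Fin (rk z), l ≠ m → ∀ t : F, s m + t • s l ≠ 0 := by
      intro l m hlm t h0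
      have := hi0 (fun n => if n = m then 1 else if n = l then t else 0) (by
        simp only [ite_smul, one_smul, zero_smul]
        rw [Finset.sum_ite, Finset.filter_eq', if_pos (Finset.mem_univ _), Finset.sum_singleton, Finset.sum_ite_eq',
          if_pos (by simp [hlm])]
        exact h0) m
      simp at this
    obtain ⟨u, hu, huR, huu, hu0⟩ : ∃ u : V, IsRatVec F₀ u ∧ u ∈ resid z ∧ q u = 0 ∧ u ≠ 0 := by
      by_cases h0 : q (s ⟨0, by omega⟩) = 0
      · exact ⟨_, hs _, hsR _, h0, hli.ne_zero _⟩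
      · obtain ⟨t, ht, hq⟩ := hcomb _ _ (hs _) (hs ⟨1, by omega⟩) (hsR _) (hsR _) h0
        exact ⟨_, isRat_add (hs _) (isRat_smul ht (hs _)), add_mem (hsR _) (Submodule.smul_mem _ _ (hsR _)), hq,
          hne _ _ (by simp [Fin.ext_iff]) t⟩
    by_cases h3 : rk z = 2
    · obtain ⟨x, hx, hxx, -, hxs, hxn⟩ := H.exists_sing s hs s hs (by have := H.big; omega)
      refine ⟨u, x, hu, huR, huu, hu0, hx, hxx, fun h => hxn ?_, hxs⟩
      rw [hspan]
      exact (Submodule.span_singleton_le_iff_mem _ _).mpr huR h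
    · obtain ⟨x, hx, hxx, hxu, hxR⟩ : ∃ x : V, IsRatVec F₀ x ∧ q x = 0 ∧ x ∉ Submodule.span F {u} ∧ x ∈ resid z := by
        by_contra hc
        push Not at hc
        have hline : ∀ x : V, IsRatVec F₀ x → x ∈ resid z → q x = 0 → x ∈ Submodule.span F {u} := fun x hx hm hq => by
          by_contra hn; exact hc x hx hq hn hm
        have hall : ∃ a : V, ∀ l, s l ∈ Submodule.span F ({u, a} : Set V) := by
          by_cases h : ∀ l, q (s l) = 0
          · exact ⟨u, fun l => Submodule.span_mono (by simp) (hline _ (hs l) (hsR l) (h l))⟩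
          · push Not at h
            obtain ⟨m, hm⟩ := h
            refine ⟨s m, fun l => ?_⟩
            obtain ⟨t, ht, hq⟩ := hcomb _ _ (hs m) (hs l) (hsR m) (hsR l) hm
            obtain ⟨c, hc'⟩ := Submodule.mem_span_singleton.mp (hline _ (isRat_add (hs l) (isRat_smul ht (hs m)))
              (add_mem (hsR l) (Submodule.smul_mem _ _ (hsR m))) hq)
            exact Submodule.mem_span_pair.mpr ⟨c, -t, by rw [hc']; module⟩
        obtain ⟨a, ha⟩ := hall
        classical
        have h5 := Submodule.finrank_mono (Submodule.span_le.mpr (Set.range_subset_iff.mpr ha))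
        rw [finrank_span_eq_card hli, Fintype.card_fin] at h5
        have h4 := finrank_span_finset_le_card (R := F) ({u, a} : Finset V)
        rw [Finset.coe_insert, Finset.coe_singleton] at h4
        have h6 : Module.finrank F (Submodule.span F ({u, a} : Set V)) ≤ 2 :=
          le_trans h4 (Finset.card_le_two (a := u) (b := a))
        omega
      exact ⟨u, x, hu, huR, huu, hu0, hx, hxx, hxu, fun l => hiso _ _ (hsR l) hxR⟩
  have hperp : ∀ w : V, (z : V ≃ₗ[F] V) w = w → polar q u w = 0 := fun w hw => by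
    have h := mem_fixer.mpr hw
    rw [fixer_eq_perp_resid H.nondeg] at h
    exact h u huR
  have hzx : (z : V ≃ₗ[F] V) x = x := H.fixed_of_perp hspan hxR
  have hjS : SubF F₀ j := by
    refine H.criterion hM hns hjM hu hx huu hxx (hperp x hzx) hu0 hxu hu hu0 huu ?_ (hperp _ ?_)
    · refine hiso _ _ huR ?_
      obtain ⟨v, rfl⟩ := huR
      exact ⟨(j : V ≃ₗ[F] V) v, by rw [dLin_apply, dLin_apply, map_sub, apply_of_commute hkj]⟩
    · rw [apply_of_commute hkj, hzx]
  have hjr := H.ratMap_of_invol hr hjS hjj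
  have hnz : dLin j (Y f₁) = Y a₁ := by
    rw [hjv, hY, orth_polar, orth_polar, p₁.pair, polar_comm q a₁ f₁, q2]; simp
  obtain ⟨t, ht, htli, htspan⟩ := exists_resid_basis (F₀ := F₀) hjr
  have hrk0 : 0 < rk j := Nat.pos_of_ne_zero fun h0 => by
    have hmem : dLin j (Y f₁) ∈ resid j := ⟨_, rfl⟩
    rw [Submodule.finrank_eq_zero.mp h0, Submodule.mem_bot, hnz] at hmem
    exact p₂.ne_zero (Y.map_eq_zero_iff.mp hmem)
  set l : Fin (rk j) := ⟨0, hrk0⟩
  obtain ⟨v, hv⟩ : t l ∈ resid j := htspan ▸ Submodule.subset_span (Set.mem_range_self l)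
  obtain ⟨c, d, hcd⟩ := Submodule.mem_span_pair.mp (hjmem v)
  rw [hv] at hcd
  refine H.criterion hM hns hg he₁ ha₁ p₁.left p₂.left q1 p₁.ne_zero (fun h => ?_) (ht l) (htli.ne_zero l) ?_ ?_ ?_
  · obtain ⟨t', ht'⟩ := Submodule.mem_span_singleton.mp h
    have := p₂.pair
    rw [← ht', polar_smul_left, q3, smul_zero] at this
    exact zero_ne_one this
  · rw [← hcd, map_smul_add_smul, gee, gaa, gea]; ring
  · rw [← hcd, ← hY, polar_add_left, polar_smul_left, polar_smul_left, polar_self', gee, polar_comm q (Y a₁) (Y e₁),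
      gea]
    simp
  · rw [← hcd, ← hY, polar_add_left, polar_smul_left, polar_smul_left, polar_self' q (Y a₁), gaa, gea]
    simp

/-- Without new scalars every element is rational up to a scalar. -/
theorem OR.subF_of_noNew {g : orth q} (hg : g ∈ M) : SubF F₀ g := by
  by_cases hsmall : 2 * r + 3 ≤ Fintype.card ι
  · exact H.subF_of_small hM hns hsmall hg
  have hr : Odd r := H.prime.odd_of_ne_two (by have := H.big; omega)
  by_cases h2 : (2 : F) = 0
  · exact H.subF_even hM hns h2 hr hg
  · exact H.subF_odd hM hns h2 hr hg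

end Cfsg.Agent.H76.O8
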