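import Cfsg.Agent.H76.O8.OrthSubScalar

set_option autoImplicit false
set_option linter.unusedSectionVars false

/-!
A totally singular line of root elements orthogonal to a rational singular vector is rational; the criterion for an
element of an overgroup to be rational up to a scalar.
-/

namespace Cfsg.Agent.H76.O8

open Cfsg.Agent.H98

open Cfsg.Agent.H5 QuadraticMap

variable {ι : Type} [Fintype ι] [DecidableEq ι] {F : Type*} [Field F] [Finite F]

local notation "V" => (ι → F)

variable {q : QuadraticForm F (ι → F)} {F₀ : Subfield F} {r : ℕ}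

/-- The plane spanned by two vectors is spanned by rational vectors. -/
def RatPlane (F₀ : Subfield F) (v w : ι → F) : Prop :=
  ∃ a b, IsRatVec F₀ a ∧ IsRatVec F₀ b ∧ v ∈ Submodule.span F ({a, b} : Set (ι → F)) ∧
    w ∈ Submodule.span F ({a, b} : Set (ι → F)) ∧ a ∈ Submodule.span F ({v, w} : Set (ι → F)) ∧
    b ∈ Submodule.span F ({v, w} : Set (ι → F))

theorem eich_line_apply {v w : ι → F} (hvv : q v = 0) (hww : q w = 0) (hvw : polar q v w = 0) (x : ι → F) :
    (eich q v w : (ι → F) ≃ₗ[F] (ι → F)) x = x + polar q v x • w - polar q w x • v := by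
  rw [eich_apply hvv hvw, hww, zero_mul, zero_smul, sub_zero]

variable (H : OR q F₀ r) {M : Subgroup (orth q)} (hM : Over F₀ M) (hns : NoNew F₀ M)
include H hM hns

/-- A line of root elements orthogonal to a rational singular vector is rational. -/
theorem OR.line_rat {v w z : V} (hvv : q v = 0) (hww : q w = 0) (hvw : polar q v w = 0)
    (hind : ∀ s t : F, s • v + t • w = 0 → s = 0 ∧ t = 0) (hm : RootIn M v w) (hz : IsRatVec F₀ z) (hz0 : z ≠ 0)
    (hzz : q z = 0) (hzv : polar q z v = 0) (hzw : polar q z w = 0) : RatPlane F₀ v w := by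
  have hvz : polar q v z = 0 := by rw [polar_comm, hzv]
  have hwz : polar q w z = 0 := by rw [polar_comm, hzw]
  have hsz : (eich q v w : V ≃ₗ[F] V) z = z := by rw [eich_line_apply hvv hww hvw, hvz, hwz]; simp
  -- minors on rational vectors orthogonal to `z` are rational
  have hmin : ∀ x y, IsRatVec F₀ x → IsRatVec F₀ y → polar q z x = 0 → polar q z y = 0 →
      polar q v x * polar q w y - polar q w x * polar q v y ∈ F₀ := by
    intro x y hx hy hzx hzy
    have h1 := (H.rootIn_rat hM hz hx hzz hzx).conj hm.2.2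
    rw [hsz] at h1
    have h2 := sub_mem (H.param hM hns hz hz0 h1 hy hzy) (H.polar_rat hy hx)
    rw [eich_line_apply hvv hww hvw, polar_sub_right, polar_add_right, polar_smul_right, polar_smul_right,
      smul_eq_mul, smul_eq_mul, polar_comm q y w, polar_comm q y v] at h2
    convert h2 using 1; ring
  obtain ⟨z', hz', hp⟩ := H.partner₁ hz hzz hz0
  -- rational modulo `z`
  have hmod : ∀ u : V, polar q z u = 0 → (∀ x, IsRatVec F₀ x → polar q z x = 0 → polar q u x ∈ F₀) →
      IsRatVec F₀ (u - polar q z' u • z) := by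
    intro u hzu hu
    refine H.rat_of_polar fun y hy => ?_
    have h1 := hu (y - polar q z y • z') (isRat_sub hy (isRat_smul (H.polar_rat hz hy) hz'))
      (by rw [polar_sub_right, polar_smul_right, hp.pair, smul_eq_mul, mul_one, sub_self])
    rw [polar_sub_right, polar_smul_right, smul_eq_mul, polar_comm q u y, polar_comm q u z'] at h1
    rw [polar_sub_right, polar_smul_right, smul_eq_mul, polar_comm q y z]
    convert h1 using 1; ring
  by_cases hD : ∃ x y, IsRatVec F₀ x ∧ IsRatVec F₀ y ∧ polar q z x = 0 ∧ polar q z y = 0 ∧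
      polar q v x * polar q w y - polar q w x * polar q v y ≠ 0
  · obtain ⟨x₁, x₂, hx₁, hx₂, hz₁, hz₂, hD⟩ := hD
    have hDF := hmin x₁ x₂ hx₁ hx₂ hz₁ hz₂
    set D := polar q v x₁ * polar q w x₂ - polar q w x₁ * polar q v x₂ with hDdef
    set v' := D⁻¹ • (polar q w x₂ • v - polar q v x₂ • w) with hv'
    set w' := D⁻¹ • (polar q v x₁ • w - polar q w x₁ • v) with hw'
    have hv'x : ∀ x, polar q v' x = D⁻¹ * (polar q w x₂ * polar q v x - polar q v x₂ * polar q w x) := fun x => by
      rw [hv', polar_smul_left, polar_sub_left, polar_smul_left, polar_smul_left]; rfl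
    have hw'x : ∀ x, polar q w' x = D⁻¹ * (polar q v x₁ * polar q w x - polar q w x₁ * polar q v x) := fun x => by
      rw [hw', polar_smul_left, polar_sub_left, polar_smul_left, polar_smul_left]; rfl
    clear_value v' w'
    have hzv' : polar q z v' = 0 := by rw [polar_comm, hv'x, hvz, hwz]; ring
    have hzw' : polar q z w' = 0 := by rw [polar_comm, hw'x, hvz, hwz]; ring
    have hr1 := hmod v' hzv' fun x hx hzx => by
      rw [hv'x]
      refine mul_mem (inv_mem hDF) ?_
      convert hmin x x₂ hx hx₂ hzx hz₂ using 1; ring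
    have hr2 := hmod w' hzw' fun x hx hzx => by
      rw [hw'x]
      refine mul_mem (inv_mem hDF) ?_
      convert hmin x₁ x hx₁ hx hz₁ hzx using 1
    have hvex : v = polar q v x₁ • v' + polar q v x₂ • w' := by
      rw [hv', hw', smul_smul, smul_smul]
      match_scalars <;> field_simp <;> rw [hDdef] <;> ring
    have hwex : w = polar q w x₁ • v' + polar q w x₂ • w' := by
      rw [hv', hw', smul_smul, smul_smul]
      match_scalars <;> field_simp <;> rw [hDdef] <;> ring
    set α := polar q z' v' with hα
    set β := polar q z' w' with hβ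
    set p := v' - α • z with hpdef
    set p' := w' - β • z with hp'def
    have hv'p : v' = p + α • z := by rw [hpdef, sub_add_cancel]
    have hw'p : w' = p' + β • z := by rw [hp'def, sub_add_cancel]
    clear_value α β p p'
    have qv' : q v' = 0 := by
      rw [hv', QuadraticMap.map_smul, Cfsg.Agent.H5.map_sub', QuadraticMap.map_smul, QuadraticMap.map_smul, polar_smul_left,
        polar_smul_right, hvv, hww, hvw]
      simp
    have qw' : q w' = 0 := by
      rw [hw', QuadraticMap.map_smul, Cfsg.Agent.H5.map_sub', QuadraticMap.map_smul, QuadraticMap.map_smul, polar_smul_left,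
        polar_smul_right, hvv, hww, polar_comm q w v, hvw]
      simp
    have qvw' : polar q v' w' = 0 := by
      rw [hv'x, hw', polar_smul_right, polar_smul_right, polar_sub_right, polar_sub_right, polar_smul_right,
        polar_smul_right, polar_smul_right, polar_smul_right, hvw, polar_comm q w v, hvw, polar_self', hvv,
        polar_self', hww]
      simp
    have hzp : polar q z p = 0 := by
      rw [hpdef, polar_sub_right, polar_smul_right, hzv', polar_self', hzz]; simp
    have hzp' : polar q z p' = 0 := by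
      rw [hp'def, polar_sub_right, polar_smul_right, hzw', polar_self', hzz]; simp
    have qp : q p = 0 := by
      rw [hpdef, map_sub_smul, qv', hzz, polar_comm q v' z, hzv']; simp
    have qp' : q p' = 0 := by
      rw [hp'def, map_sub_smul, qw', hzz, polar_comm q w' z, hzw']; simp
    have qpp' : polar q p p' = 0 := by
      rw [hpdef, hp'def, polar_sub_left, polar_sub_right, polar_sub_right, polar_smul_left, polar_smul_left,
        polar_smul_right, polar_smul_right, qvw', polar_comm q v' z, hzv', hzw', polar_self', hzz]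
      simp
    set X := D • (α • p' - β • p) with hX
    clear_value X
    have hXz : polar q z X = 0 := by
      rw [hX, polar_smul_right, polar_sub_right, polar_smul_right, polar_smul_right, hzp, hzp']; simp
    have qX : q X = 0 := by
      rw [hX, QuadraticMap.map_smul, Cfsg.Agent.H5.map_sub', QuadraticMap.map_smul, QuadraticMap.map_smul, polar_smul_left,
        polar_smul_right, qp, qp', polar_comm q p' p, qpp']
      simp
    have hpp'' : polar q p (D • p') = 0 := by rw [polar_smul_right, qpp', smul_zero]
    have hsplit : eich q v w = eich q p (D • p') * eich q z X := orth_ext fun x => by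
      rw [orth_mul_apply, eich_line_apply hvv hww hvw,
        eich_line_apply qp (by rw [QuadraticMap.map_smul, qp', smul_zero]) hpp'', eich_line_apply hzz qX hXz]
      have e1 : polar q p X = 0 := by
        rw [hX, polar_smul_right, polar_sub_right, polar_smul_right, polar_smul_right, qpp', polar_self', qp]; simp
      have e2 : polar q p' X = 0 := by
        rw [hX, polar_smul_right, polar_sub_right, polar_smul_right, polar_smul_right, polar_comm q p' p, qpp',
          polar_self', qp']
        simp
      simp only [polar_smul_left, polar_add_right, polar_sub_right, polar_smul_right, e1, e2,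
        polar_comm q p z, hzp, polar_comm q p' z, hzp']
      rw [hvex, hwex, hv'p, hw'p, hX]
      simp only [polar_add_left, polar_smul_left, polar_sub_left, smul_eq_mul]
      rw [hDdef]
      module
    have hXM : RootIn M z X := by
      refine ⟨hzz, hXz, ?_⟩
      have h1 := hM _ (H.eich_comm_mem p (D • p')) (H.ratMap_eich hr1 (isRat_smul hDF hr2))
      have h2 := hm.2.2
      rw [hsplit] at h2
      exact (Subgroup.mul_mem_cancel_left M h1).mp h2
    have ev1 : polar q v' x₁ = 1 := by
      rw [hv'x, show polar q w x₂ * polar q v x₁ - polar q v x₂ * polar q w x₁ = D by rw [hDdef]; ring,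
        inv_mul_cancel₀ hD]
    have ev2 : polar q v' x₂ = 0 := by rw [hv'x]; ring
    have ew1 : polar q w' x₁ = 0 := by rw [hw'x]; ring
    have ew2 : polar q w' x₂ = 1 := by rw [hw'x, ← hDdef, inv_mul_cancel₀ hD]
    have hpar : ∀ x, IsRatVec F₀ x → polar q z x = 0 →
        D * (α * polar q w' x - β * polar q v' x) ∈ F₀ := fun x hx hzx => by
      have h1 := H.param hM hns hz hz0 hXM hx hzx
      rw [hX, hpdef, hp'def, polar_smul_right, polar_sub_right, polar_smul_right, polar_smul_right, polar_sub_right,
        polar_sub_right, polar_smul_right, polar_smul_right, polar_comm q x w', polar_comm q x v',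
        polar_comm q x z, hzx] at h1
      simpa using h1
    have hβF : β ∈ F₀ := by
      have := mul_mem (neg_mem (inv_mem hDF)) (hpar x₁ hx₁ hz₁)
      rw [ev1, ew1] at this
      convert this using 1; field_simp; ring
    have hαF : α ∈ F₀ := by
      have := mul_mem (inv_mem hDF) (hpar x₂ hx₂ hz₂)
      rw [ev2, ew2] at this
      convert this using 1; field_simp; ring
    refine ⟨v', w', hv'p ▸ isRat_add hr1 (isRat_smul hαF hz), hw'p ▸ isRat_add hr2 (isRat_smul hβF hz),
      Submodule.mem_span_pair.mpr ⟨_, _, hvex.symm⟩, Submodule.mem_span_pair.mpr ⟨_, _, hwex.symm⟩,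
      Submodule.mem_span_pair.mpr ⟨D⁻¹ * polar q w x₂, -(D⁻¹ * polar q v x₂), ?_⟩,
      Submodule.mem_span_pair.mpr ⟨-(D⁻¹ * polar q w x₁), D⁻¹ * polar q v x₁, ?_⟩⟩
    · rw [hv']; module
    · rw [hw']; module
  · push Not at hD
    -- the rational point lies on the line
    have key : ∀ u : V, polar q z u = 0 → (∀ x, IsRatVec F₀ x → polar q z x = 0 → polar q u x = 0) →
        u = polar q z' u • z := by
      intro u hzu hu
      refine sub_eq_zero.mp (H.eq_zero fun y hy => ?_)
      have h1 := hu (y - polar q z y • z') (isRat_sub hy (isRat_smul (H.polar_rat hz hy) hz'))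
        (by rw [polar_sub_right, polar_smul_right, hp.pair, smul_eq_mul, mul_one, sub_self])
      rw [polar_sub_right, polar_smul_right, smul_eq_mul, polar_comm q u y, polar_comm q u z'] at h1
      rw [polar_sub_right, polar_smul_right, smul_eq_mul, polar_comm q y z]
      linear_combination h1
    obtain ⟨a, b, hab⟩ : ∃ a b : F, z = a • v + b • w := by
      by_cases hv0 : ∀ x, IsRatVec F₀ x → polar q z x = 0 → polar q v x = 0
      · have e := key v hzv hv0
        have hne : polar q z' v ≠ 0 := fun h0 => one_ne_zero (hind 1 0 (by rw [e, h0]; simp)).1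
        refine ⟨(polar q z' v)⁻¹, 0, ?_⟩
        rw [zero_smul, add_zero]
        exact (eq_inv_smul_iff₀ hne).mpr e.symm
      · push Not at hv0
        obtain ⟨x, hx, hzx, hvx⟩ := hv0
        have e := key (polar q v x • w - polar q w x • v)
          (by rw [polar_sub_right, polar_smul_right, polar_smul_right, hzv, hzw]; simp) fun y hy hzy => by
            rw [polar_sub_left, polar_smul_left, polar_smul_left]; exact hD x y hx hy hzx hzy
        set k := polar q z' (polar q v x • w - polar q w x • v)
        have hk : k ≠ 0 := fun h0 => hvx (hind (-polar q w x) (polar q v x) (by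
          rw [h0, zero_smul] at e
          rw [← e]; module)).2
        refine ⟨-(k⁻¹ * polar q w x), k⁻¹ * polar q v x, ?_⟩
        calc z = k⁻¹ • (k • z) := by rw [smul_smul, inv_mul_cancel₀ hk, one_smul]
          _ = k⁻¹ • (polar q v x • w - polar q w x • v) := by rw [← e]
          _ = _ := by module
    -- the root element is attached to the rational point
    obtain ⟨u, hu, hvu, hwu, hroot⟩ : ∃ u : V, u ∈ Submodule.span F ({v, w} : Set V) ∧
        v ∈ Submodule.span F ({z, u} : Set V) ∧ w ∈ Submodule.span F ({z, u} : Set V) ∧ RootIn M z u := by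
      rcases eq_or_ne b 0 with hb | hb
      · rw [hb, zero_smul, add_zero] at hab
        have ha : a ≠ 0 := fun h => hz0 (by rw [hab, h, zero_smul])
        have hzu : polar q z (a⁻¹ • w) = 0 := by rw [polar_smul_right, hzw, smul_zero]
        refine ⟨a⁻¹ • w, Submodule.smul_mem _ _ (Submodule.subset_span (by simp)),
          Submodule.mem_span_pair.mpr ⟨a⁻¹, 0, ?_⟩, Submodule.mem_span_pair.mpr ⟨0, a, ?_⟩, hzz, hzu, ?_⟩
        · rw [hab, smul_smul, inv_mul_cancel₀ ha, one_smul, zero_smul, add_zero]
        · rw [zero_smul, zero_add, smul_smul, mul_inv_cancel₀ ha, one_smul]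
        · convert hm.2.2 using 1
          refine orth_ext fun x => ?_
          rw [eich_line_apply hzz (by rw [QuadraticMap.map_smul, hww, smul_zero]) hzu, eich_line_apply hvv hww hvw,
            hab]
          simp only [polar_smul_left, smul_eq_mul]
          match_scalars <;> field_simp
      · have hzu : polar q z ((-b⁻¹) • v) = 0 := by rw [polar_smul_right, hzv, smul_zero]
        refine ⟨(-b⁻¹) • v, Submodule.smul_mem _ _ (Submodule.subset_span (by simp)),
          Submodule.mem_span_pair.mpr ⟨0, -b, ?_⟩, Submodule.mem_span_pair.mpr ⟨b⁻¹, a, ?_⟩, hzz, hzu, ?_⟩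
        · rw [zero_smul, zero_add, smul_smul, neg_mul_neg, mul_inv_cancel₀ hb, one_smul]
        · rw [hab]; match_scalars <;> field_simp <;> ring
        · convert hm.2.2 using 1
          refine orth_ext fun x => ?_
          rw [eich_line_apply hzz (by rw [QuadraticMap.map_smul, hvv, smul_zero]) hzu, eich_line_apply hvv hww hvw,
            hab]
          simp only [polar_add_left, polar_smul_left, smul_eq_mul]
          match_scalars <;> field_simp <;> ring
    obtain ⟨t, ht⟩ := H.param_rat hM hns hz hz0 hroot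
    have hzmem : z ∈ Submodule.span F ({v, w} : Set V) := Submodule.mem_span_pair.mpr ⟨a, b, hab.symm⟩
    have hle : Submodule.span F ({z, u} : Set V) ≤ Submodule.span F ({z, u - t • z} : Set V) :=
      Submodule.span_le.mpr (by
        rintro y (rfl | rfl)
        · exact Submodule.subset_span (by simp)
        · exact Submodule.mem_span_pair.mpr ⟨t, 1, by module⟩)
    exact ⟨z, u - t • z, hz, ht, hle hvu, hle hwu, hzmem, Submodule.sub_mem _ hu (Submodule.smul_mem _ _ hzmem)⟩

/-- An element carrying a rational line orthogonally to a rational singular vector is rational up to a scalar. -/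
theorem OR.criterion {y : orth q} (hy : y ∈ M) {a b z : V} (ha : IsRatVec F₀ a) (hb : IsRatVec F₀ b) (haa : q a = 0)
    (hbb : q b = 0) (hab : polar q a b = 0) (ha0 : a ≠ 0) (hba : b ∉ Submodule.span F {a}) (hz : IsRatVec F₀ z)
    (hz0 : z ≠ 0) (hzz : q z = 0) (hza : polar q z ((y : V ≃ₗ[F] V) a) = 0)
    (hzb : polar q z ((y : V ≃ₗ[F] V) b) = 0) : SubF F₀ y := by
  classical
  set Y : V ≃ₗ[F] V := (y : V ≃ₗ[F] V) with hY
  have hind : ∀ c d : V, c ≠ 0 → d ∉ Submodule.span F {c} → ∀ s t : F, s • c + t • d = 0 → s = 0 ∧ t = 0 := by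
    intro c d hc0 hdc s t hst
    rcases eq_or_ne t 0 with rfl | ht
    · rw [zero_smul, add_zero] at hst
      exact ⟨(smul_eq_zero.mp hst).resolve_right hc0, rfl⟩
    · exact absurd (Submodule.mem_span_singleton.mpr ⟨-(t⁻¹ * s), by
        have : d = t⁻¹ • -(s • c) := by
          rw [← eq_neg_of_add_eq_zero_right hst, smul_smul, inv_mul_cancel₀ ht, one_smul]
        rw [this]; module⟩) hdc
  have base : ∀ c d z : V, IsRatVec F₀ c → IsRatVec F₀ d → q c = 0 → q d = 0 → polar q c d = 0 → c ≠ 0 →
      d ∉ Submodule.span F {c} → IsRatVec F₀ z → z ≠ 0 → q z = 0 → polar q z (Y c) = 0 → polar q z (Y d) = 0 →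
      RatPlane F₀ (Y c) (Y d) := by
    intro c d z hc hd hcc hdd hcd hc0 hdc hz hz0 hzz hzc hzd
    refine H.line_rat hM hns (by rw [hY, orth_map, hcc]) (by rw [hY, orth_map, hdd])
      (by rw [hY, orth_polar, hcd]) (fun s t hst => hind c d hc0 hdc s t ?_)
      ((H.rootIn_rat hM hc hd hcc hcd).conj hy) hz hz0 hzz hzc hzd
    rw [← map_smul, ← map_smul, ← map_add] at hst
    exact Y.map_eq_zero_iff.mp hst
  have step : ∀ c d e g : V, q c = 0 → q d = 0 → polar q c d = 0 → c ≠ 0 → d ∉ Submodule.span F {c} →
      RatPlane F₀ (Y c) (Y d) → IsRatVec F₀ e → IsRatVec F₀ g → q e = 0 → q g = 0 → polar q e g = 0 → e ≠ 0 →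
      g ∉ Submodule.span F {e} → polar q c e = 0 → polar q c g = 0 → polar q d e = 0 → polar q d g = 0 →
      RatPlane F₀ (Y e) (Y g) := by
    intro c d e g hcc hdd hcd hc0 hdc hP he hg hee hgg heg he0 hge h1 h2 h3 h4
    obtain ⟨p, p', hp, hp', hcm, hdm, hpm, hp'm⟩ := hP
    have hne : p ≠ 0 ∨ p' ≠ 0 := by
      by_contra hc'; push Not at hc'
      obtain ⟨s, t, e1⟩ := Submodule.mem_span_pair.mp hcm
      rw [hc'.1, hc'.2, smul_zero, smul_zero, add_zero] at e1
      exact hc0 (Y.map_eq_zero_iff.mp e1.symm)
    obtain ⟨u, hu, hu0, hum⟩ : ∃ u, IsRatVec F₀ u ∧ u ≠ 0 ∧ u ∈ Submodule.span F ({Y c, Y d} : Set V) :=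
      hne.elim (fun h => ⟨p, hp, h, hpm⟩) (fun h => ⟨p', hp', h, hp'm⟩)
    obtain ⟨s, t, e1⟩ := Submodule.mem_span_pair.mp hum
    rw [← map_smul, ← map_smul, ← map_add] at e1
    refine base e g u he hg hee hgg heg he0 hge hu hu0 ?_ ?_ ?_ <;> rw [← e1, hY]
    · rw [orth_map, map_smul_add_smul, hcc, hdd, hcd]; ring
    · rw [orth_polar, polar_add_left, polar_smul_left, polar_smul_left, h1, h3]; simp
    · rw [orth_polar, polar_add_left, polar_smul_left, polar_smul_left, h2, h4]; simp
  have hbase := base a b z ha hb haa hbb hab ha0 hba hz hz0 hzz hza hzb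
  have hlines : ∀ e g : V, IsRatVec F₀ e → IsRatVec F₀ g → q e = 0 → q g = 0 → polar q e g = 0 → e ≠ 0 →
      g ∉ Submodule.span F {e} → RatPlane F₀ (Y e) (Y g) := by
    intro e g he hg hee hgg heg he0 hge
    obtain ⟨p, p', hp, hp', hpp, hp'p', hpp', hp0, hp'p, hps, hp's⟩ := H.exists_line ![a, b, e]
      (fun i => by fin_cases i <;> assumption) (by have := H.big; omega)
    have h1 := step a b p p' haa hbb hab ha0 hba hbase hp hp' hpp hp'p' hpp' hp0 hp'p (by simpa using hps 0)
      (by simpa using hp's 0) (by simpa using hps 1) (by simpa using hp's 1)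
    have hpe : polar q p e = 0 := by rw [polar_comm]; simpa using hps 2
    have hp'e : polar q p' e = 0 := by rw [polar_comm]; simpa using hp's 2
    by_cases hm : e ∈ Submodule.span F ({p, p'} : Set V)
    · obtain ⟨s, t, e1⟩ := Submodule.mem_span_pair.mp hm
      obtain ⟨w, hw, hpw, hp'w⟩ : ∃ w : V, IsRatVec F₀ w ∧ p ∈ Submodule.span F ({e, w} : Set V) ∧
          p' ∈ Submodule.span F ({e, w} : Set V) := by
        rcases eq_or_ne t 0 with rfl | ht
        · have hs : s ≠ 0 := by rintro rfl; exact he0 (by rw [← e1, zero_smul, zero_smul, add_zero])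
          refine ⟨p', hp', Submodule.mem_span_pair.mpr ⟨s⁻¹, 0, ?_⟩, Submodule.subset_span (by simp)⟩
          simp only [← e1, zero_smul, add_zero, smul_smul, inv_mul_cancel₀ hs, one_smul]
        · refine ⟨p, hp, Submodule.subset_span (by simp), Submodule.mem_span_pair.mpr ⟨t⁻¹, -(t⁻¹ * s), ?_⟩⟩
          rw [← e1, smul_add, smul_smul, smul_smul, inv_mul_cancel₀ ht, one_smul]; module
      obtain ⟨u, u', hu, hu', huu, hu'u', huu', hu0, hu'u, hus, hu's⟩ := H.exists_line ![e, g, w]
        (fun i => by fin_cases i <;> assumption) (by have := H.big; omega)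
      have hperp : ∀ x, x ∈ Submodule.span F ({e, w} : Set V) → polar q x u = 0 ∧ polar q x u' = 0 := fun x hx => by
        obtain ⟨c, d, rfl⟩ := Submodule.mem_span_pair.mp hx
        constructor <;> simp only [polar_add_left, polar_smul_left, show polar q e u = 0 by simpa using hus 0,
          show polar q w u = 0 by simpa using hus 2, show polar q e u' = 0 by simpa using hu's 0,
          show polar q w u' = 0 by simpa using hu's 2, smul_zero, add_zero]
      have h2 := step p p' u u' hpp hp'p' hpp' hp0 hp'p h1 hu hu' huu hu'u' huu' hu0 hu'u (hperp p hpw).1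
        (hperp p hpw).2 (hperp p' hp'w).1 (hperp p' hp'w).2
      refine step u u' e g huu hu'u' huu' hu0 hu'u h2 he hg hee hgg heg he0 hge ?_ ?_ ?_ ?_ <;> rw [polar_comm]
      · simpa using hus 0
      · simpa using hus 1
      · simpa using hu's 0
      · simpa using hu's 1
    by_cases hperp : polar q p g = 0 ∧ polar q p' g = 0
    · exact step p p' e g hpp hp'p' hpp' hp0 hp'p h1 he hg hee hgg heg he0 hge hpe hperp.1 hp'e hperp.2
    set y := polar q p' g • p - polar q p g • p' with hy0
    have hyne : y ∉ Submodule.span F {e} := by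
      intro hye
      obtain ⟨c, hc⟩ := Submodule.mem_span_singleton.mp hye
      rcases eq_or_ne c 0 with rfl | hc0
      · rw [zero_smul] at hc
        obtain ⟨h5, h6⟩ := hind p p' hp0 hp'p (polar q p' g) (-polar q p g) (by
          rw [neg_smul, ← sub_eq_add_neg, ← hy0, ← hc])
        exact hperp ⟨neg_eq_zero.mp h6, h5⟩
      · refine hm ((Submodule.smul_mem_iff _ hc0).mp ?_)
        rw [hc, hy0]
        exact sub_mem (Submodule.smul_mem _ _ (Submodule.subset_span (by simp)))
          (Submodule.smul_mem _ _ (Submodule.subset_span (by simp)))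
    have hyr : IsRatVec F₀ y :=
      isRat_sub (isRat_smul (H.polar_rat hp' hg) hp) (isRat_smul (H.polar_rat hp hg) hp')
    have hpx : polar q p y = 0 := by
      rw [hy0, polar_sub_right, polar_smul_right, polar_smul_right, polar_self', hpp, hpp']; simp
    have hp'x : polar q p' y = 0 := by
      rw [hy0, polar_sub_right, polar_smul_right, polar_smul_right, polar_self', hp'p', polar_comm q p' p, hpp']
      simp
    have hyy : q y = 0 := by
      rw [hy0, Cfsg.Agent.H5.map_sub', QuadraticMap.map_smul, QuadraticMap.map_smul, polar_smul_left, polar_smul_right,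
        hpp, hp'p', hpp']
      simp
    have hey : polar q e y = 0 := by
      rw [hy0, polar_sub_right, polar_smul_right, polar_smul_right, polar_comm q e p, hpe, polar_comm q e p', hp'e]
      simp
    have hyg : polar q y g = 0 := by
      rw [hy0, polar_sub_left, polar_smul_left, polar_smul_left, smul_eq_mul, smul_eq_mul]; ring
    have h2 := step p p' e y hpp hp'p' hpp' hp0 hp'p h1 he hyr hee hyy hey he0 hyne hpe hpx hp'e hp'x
    exact step e y e g hee hyy hey he0 hyne h2 he hg hee hgg heg he0 hge
      (by rw [polar_self', hee]; simp) heg (by rw [polar_comm, hey]) hyg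
  haveI : FiniteDimensional F₀ F := inferInstance
  have hpoint : ∀ e, IsRatVec F₀ e → q e = 0 → e ≠ 0 →
      ∃ (k : F) (u : V), IsRatVec F₀ u ∧ k ≠ 0 ∧ Y e = k • u := by
    intro e he hee he0
    obtain ⟨g, g', hg, hg', hgg, hg'g', hgg', -, -, hgs, hg's⟩ := H.exists_line ![e]
      (fun i => by fin_cases i; exact he) (by have := H.big; omega)
    obtain ⟨b₁, hb₁, hb₁b₁, -, hb₁s, hb₁n⟩ := H.exists_sing ![e] (fun i => by fin_cases i; exact he) ![e]
      (fun i => by fin_cases i; exact he) (by have := H.big; omega)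
    obtain ⟨b₂, hb₂, hb₂b₂, -, hb₂s, hb₂n⟩ := H.exists_sing ![e, b₁] (fun i => by fin_cases i <;> assumption) ![e, b₁]
      (fun i => by fin_cases i <;> assumption) (by have := H.big; omega)
    have hb₁e : b₁ ∉ Submodule.span F {e} := by simpa using hb₁n
    have hr2 : Set.range ![e, b₁] = ({e, b₁} : Set V) := by simp [Set.pair_comm]
    rw [hr2] at hb₂n
    have hb₂e : b₂ ∉ Submodule.span F {e} := fun h => hb₂n (Submodule.span_mono (by simp) h)
    obtain ⟨p, p', hp, hp', hem, -, hpm, hp'm⟩ := hlines e b₁ he hb₁ hee hb₁b₁ (by simpa using hb₁s 0) he0 hb₁e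
    obtain ⟨u, u', hu, hu', hem', -, hum, hu'm⟩ := hlines e b₂ he hb₂ hee hb₂b₂ (by simpa using hb₂s 0) he0 hb₂e
    obtain ⟨j, hj⟩ := Function.ne_iff.mp (Y.map_ne_zero_iff.mpr he0)
    obtain ⟨φ, hφ⟩ : ∃ φ : F →ₗ[F₀] F₀, φ (Y e j) = 1 := by
      obtain ⟨φ, h1, -⟩ := Submodule.exists_dual_map_eq_bot_of_notMem
        (show Y e j ∉ (⊥ : Submodule F₀ F) from fun h => hj ((Submodule.mem_bot F₀).mp h)) inferInstance
      exact ⟨(φ (Y e j))⁻¹ • φ, by rw [LinearMap.smul_apply, smul_eq_mul, inv_mul_cancel₀ h1]⟩
    set P : V := fun i => ((φ (Y e i) : F₀) : F) with hP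
    have hPr : IsRatVec F₀ P := fun i => (φ (Y e i)).2
    have hin : ∀ p p' : V, IsRatVec F₀ p → IsRatVec F₀ p' → Y e ∈ Submodule.span F ({p, p'} : Set V) →
        P ∈ Submodule.span F ({p, p'} : Set V) := by
      intro p p' hp hp' hm'
      obtain ⟨s, t, hst⟩ := Submodule.mem_span_pair.mp hm'
      refine Submodule.mem_span_pair.mpr ⟨((φ s : F₀) : F), ((φ t : F₀) : F), funext fun i => ?_⟩
      have e1 : Y e i = (⟨p i, hp i⟩ : F₀) • s + (⟨p' i, hp' i⟩ : F₀) • t := by
        rw [← hst]
        simp only [Pi.add_apply, Pi.smul_apply, smul_eq_mul]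
        change s * p i + t * p' i = p i * s + p' i * t
        ring
      simp only [hP, Pi.add_apply, Pi.smul_apply, smul_eq_mul, e1, map_add, map_smul, Subfield.coe_add,
        Subfield.coe_mul]
      ring
    have h1 := Submodule.span_le.mpr (Set.insert_subset hpm (Set.singleton_subset_iff.mpr hp'm)) (hin p p' hp hp' hem)
    have h2 := Submodule.span_le.mpr (Set.insert_subset hum (Set.singleton_subset_iff.mpr hu'm))
      (hin u u' hu hu' hem')
    obtain ⟨s₁, t₁, e1⟩ := Submodule.mem_span_pair.mp h1
    obtain ⟨s₂, t₂, e2⟩ := Submodule.mem_span_pair.mp h2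
    have e3 : (s₁ - s₂) • e + t₁ • b₁ = t₂ • b₂ := Y.injective (by
      rw [map_add, map_smul, map_smul, map_smul, sub_smul, sub_add_eq_add_sub, e1, ← e2, add_sub_cancel_left])
    have ht₂ : t₂ = 0 := by
      by_contra ht
      refine hb₂n (Submodule.mem_span_pair.mpr ⟨t₂⁻¹ * (s₁ - s₂), t₂⁻¹ * t₁, ?_⟩)
      rw [mul_smul, mul_smul, ← smul_add, e3, smul_smul, inv_mul_cancel₀ ht, one_smul]
    rw [ht₂, zero_smul, add_zero] at e2
    have hP0 : P ≠ 0 := fun h => by
      have := congrFun h j
      simp [hP, hφ] at this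
    have hs2 : s₂ ≠ 0 := fun h => hP0 (by rw [← e2, h, zero_smul])
    exact ⟨s₂⁻¹, P, hPr, inv_ne_zero hs2, by rw [← e2, smul_smul, inv_mul_cancel₀ hs2, one_smul]⟩
  have hsum : ∀ e g k l u w, IsRatVec F₀ e → IsRatVec F₀ g → q e = 0 → q g = 0 → polar q e g = 0 → e ≠ 0 →
      g ∉ Submodule.span F {e} → IsRatVec F₀ u → IsRatVec F₀ w → k ≠ 0 → l ≠ 0 → Y e = k • u → Y g = l • w →
      l / k ∈ F₀ := by
    intro e g k l u w he hg hee hgg heg he0 hge hu hw hk hl e1 e2
    obtain ⟨m, o, ho, hm0, e3⟩ := hpoint (e + g) (isRat_add he hg)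
      (by rw [QuadraticMap.map_add (⇑q), hee, hgg, heg, add_zero, add_zero])
      (fun h => one_ne_zero (hind e g he0 hge 1 1 (by rw [one_smul, one_smul, h])).1)
    rw [map_add, e1, e2] at e3
    have e4 : u + (l / k) • w = (m / k) • o := by
      have := congrArg (fun v : V => k⁻¹ • v) e3
      simp only [smul_add, smul_smul, inv_mul_cancel₀ hk, one_smul] at this
      simpa [div_eq_inv_mul] using this
    have hnu : u ∉ Submodule.span F {w} := fun h => by
      obtain ⟨t, rfl⟩ := Submodule.mem_span_singleton.mp h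
      obtain ⟨hk0, -⟩ := hind e g he0 hge l (-(k * t)) (Y.injective (by
        rw [map_add, map_smul, map_smul, map_zero, e1, e2]; module))
      exact hl hk0
    have hnw : w ∉ Submodule.span F {u} := fun h => by
      obtain ⟨t, rfl⟩ := Submodule.mem_span_singleton.mp h
      obtain ⟨-, hk0⟩ := hind e g he0 hge (-(l * t)) k (Y.injective (by
        rw [map_add, map_smul, map_smul, map_zero, e1, e2]; module))
      exact hk hk0
    obtain ⟨φ, hφ1, hφ0⟩ := exists_functional_rat H (s := ![w]) (fun i => by fin_cases i; exact hw) hu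
      (by simpa using hnu)
    obtain ⟨ψ, hψ1, hψ0⟩ := exists_functional_rat H (s := ![u]) (fun i => by fin_cases i; exact hu) hw
      (by simpa using hnw)
    obtain ⟨o', rfl⟩ := exists_incl ho
    have f1 := congrArg (extF φ) e4
    have f2 := congrArg (extF ψ) e4
    rw [map_add, map_smul, map_smul, hφ1, show extF φ w = 0 from hφ0 0, smul_zero, add_zero, extF_incl,
      smul_eq_mul] at f1
    rw [map_add, map_smul, map_smul, hψ1, show extF ψ u = 0 from hψ0 0, zero_add, smul_eq_mul, mul_one, extF_incl,
      smul_eq_mul] at f2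
    rw [f2]
    refine mul_mem ?_ (ψ o').2
    rw [eq_inv_of_mul_eq_one_left f1.symm]
    exact inv_mem (φ o').2
  obtain ⟨c, u₀, hu₀, hc, hca⟩ := hpoint a ha haa ha0
  have hall : ∀ e, IsRatVec F₀ e → q e = 0 → IsRatVec F₀ (c⁻¹ • Y e) := by
    intro e he hee
    rcases eq_or_ne e 0 with rfl | he0
    · rw [map_zero, smul_zero]; exact isRat_zero
    obtain ⟨x, hx, hxx, hx0, hxs, hxn⟩ := H.exists_sing ![a, e] (fun i => by fin_cases i <;> assumption) ![a, e]
      (fun i => by fin_cases i <;> assumption) (by have := H.big; omega)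
    have hr2 : Set.range ![a, e] = ({a, e} : Set V) := by simp [Set.pair_comm]
    rw [hr2] at hxn
    obtain ⟨cx, rx, hrx, hcx, ex⟩ := hpoint x hx hxx hx0
    obtain ⟨ce, re, hre, hce, ee⟩ := hpoint e he hee he0
    have q1 := hsum a x c cx u₀ rx ha hx haa hxx (by simpa using hxs 0) ha0
      (fun h => hxn (Submodule.span_mono (by simp) h)) hu₀ hrx hc hcx hca ex
    have q2 := hsum e x ce cx re rx he hx hee hxx (by simpa using hxs 1) he0
      (fun h => hxn (Submodule.span_mono (by simp) h)) hre hrx hce hcx ee ex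
    rw [ee, smul_smul]
    refine isRat_smul ?_ hre
    have := mul_mem q1 (inv_mem q2)
    rwa [inv_div, div_mul_div_comm, mul_comm c cx, mul_div_mul_left _ _ hcx, div_eq_inv_mul] at this
  refine ⟨c⁻¹, inv_ne_zero hc, fun x hx => ?_⟩
  exact H.rat_span (Fin.elim0 : Fin 0 → V) (fun i => i.elim0) (by have := H.big; omega)
    (p := fun x => IsRatVec F₀ (c⁻¹ • Y x)) (fun x x' h h' => by rw [map_add, smul_add]; exact isRat_add h h')
    (fun k hk x h => by rw [map_smul, smul_comm]; exact isRat_smul hk h) (fun z hz hzz _ => hall z hz hzz) hx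
    (fun i => i.elim0)

end Cfsg.Agent.H76.O8
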