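import Cfsg.Agent.H76.O8.OrthSubLine
import Cfsg.Agent.S0801

set_option autoImplicit false
set_option linter.unusedSectionVars false

/-!
In odd characteristic a root element of an overgroup has a rational line: two root elements with lines in general
position generate a copy of `SL₂` over the field generated by their pairing.
-/

namespace Cfsg.Agent.H76.O8

open Cfsg.Agent.H98

open Cfsg.Agent.H5 QuadraticMap

variable {ι : Type} [Fintype ι] [DecidableEq ι] {F : Type*} [Field F] [Finite F]

local notation "V" => (ι → F)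

/-- The action of a two-by-two matrix on the pairs `(z, w)` and `(v, y)`. -/
def phi (q : QuadraticForm F (ι → F)) (z y v w : ι → F) (A : Matrix (Fin 2) (Fin 2) F) (x : ι → F) : ι → F :=
  x + polar q v x • ((A 1 1 - 1) • z + A 0 1 • w) + polar q y x • (A 1 0 • z + (A 0 0 - 1) • w) +
    polar q z x • ((A 0 0 - 1) • v - A 1 0 • y) + polar q w x • ((-A 0 1) • v + (A 1 1 - 1) • y)

variable {q : QuadraticForm F (ι → F)} {F₀ : Subfield F} {r : ℕ}

/-- Singular vectors `z, y, v, w` with `(z, v)` and `(y, w)` the only pairings. -/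
structure Quad4 (q : QuadraticForm F (ι → F)) (z y v w : ι → F) : Prop where
  qz : q z = 0
  qy : q y = 0
  qv : q v = 0
  qw : q w = 0
  zy : polar q z y = 0
  vw : polar q v w = 0
  zw : polar q z w = 0
  yv : polar q y v = 0
  zv : polar q z v = 1
  yw : polar q y w = 1

theorem phi_mul {z y v w : ι → F} (P : Quad4 q z y v w) (A B : Matrix (Fin 2) (Fin 2) F) (x : ι → F) :
    phi q z y v w A (phi q z y v w B x) = phi q z y v w (A * B) x := by
  have := P.zv; have := P.yw
  simp only [phi, polar_add_right, polar_sub_right, polar_smul_right, polar_self', P.qz, P.qy, P.qv, P.qw, P.zy,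
    P.vw, P.zw, P.yv, P.zv, P.yw, polar_comm q v z, polar_comm q y z, polar_comm q w z, polar_comm q v y,
    polar_comm q w y, polar_comm q w v, Matrix.mul_apply, Fin.sum_univ_two, smul_eq_mul, mul_zero, mul_one]
  module

theorem phi_one {z y v w : ι → F} (x : ι → F) : phi q z y v w 1 x = x := by
  simp [phi]

/-- The matrices realised in a subgroup. -/
def realised (M : Subgroup (orth q)) {z y v w : ι → F} (P : Quad4 q z y v w) :
    Subgroup (Matrix.SpecialLinearGroup (Fin 2) F) where
  carrier := {A | ∃ g ∈ M, ∀ x, ((g : orth q) : (ι → F) ≃ₗ[F] (ι → F)) x = phi q z y v w (A : Matrix (Fin 2) (Fin 2) F) x}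
  mul_mem' := by
    rintro A B ⟨g, hg, hgA⟩ ⟨h, hh, hhB⟩
    exact ⟨g * h, mul_mem hg hh, fun x => by
      rw [orth_mul_apply, hhB, hgA, phi_mul P, Matrix.SpecialLinearGroup.coe_mul]⟩
  one_mem' := ⟨1, one_mem M, fun x => by rw [Matrix.SpecialLinearGroup.coe_one, phi_one]; rfl⟩
  inv_mem' := by
    rintro A ⟨g, hg, hgA⟩
    refine ⟨g⁻¹, inv_mem hg, fun x => ((g : orth q) : (ι → F) ≃ₗ[F] (ι → F)).injective ?_⟩
    rw [orth_apply_inv_apply, hgA, phi_mul P, ← Matrix.SpecialLinearGroup.coe_mul, mul_inv_cancel,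
      Matrix.SpecialLinearGroup.coe_one, phi_one]

variable (H : OR q F₀ r) {M : Subgroup (orth q)} (hM : Over F₀ M) (hns : NoNew F₀ M)
include H hM hns

/-- The pairing of a root element of the overgroup with a rational singular line is rational. -/
theorem OR.pairing_mem (h2 : (2 : F) ≠ 0) (hr : Odd r) {v w : V} (hvv : q v = 0) (hww : q w = 0)
    (hvw : polar q v w = 0) (hm : RootIn M v w) {z y : V} (hz : IsRatVec F₀ z) (hy : IsRatVec F₀ y)
    (hzz : q z = 0) (hyy : q y = 0) (hzy : polar q z y = 0) :
    polar q v z * polar q w y - polar q w z * polar q v y ∈ F₀ := by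
  classical
  rcases eq_or_ne z 0 with rfl | hz0
  · simp
  by_cases hyz : y ∈ Submodule.span F {z}
  · obtain ⟨t, rfl⟩ := Submodule.mem_span_singleton.mp hyz
    simp only [polar_smul_right, smul_eq_mul]
    convert zero_mem F₀ using 1
    ring
  set δ := polar q v z * polar q w y - polar q w z * polar q v y with hδ
  rcases eq_or_ne δ 0 with h0 | h0
  · rw [h0]; exact zero_mem _
  set v' := δ⁻¹ • (polar q w y • v - polar q v y • w) with hv'
  set w' := δ⁻¹ • (polar q v z • w - polar q w z • v) with hw'
  have hq : ∀ s t : F, q (s • v - t • w) = 0 := fun s t => by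
    rw [Cfsg.Agent.H5.map_sub', QuadraticMap.map_smul, QuadraticMap.map_smul, polar_smul_left, polar_smul_right,
      hvv, hww, hvw]
    simp
  have P : Quad4 q z y v' w' := by
    refine ⟨hzz, hyy, ?_, ?_, hzy, ?_, ?_, ?_, ?_, ?_⟩
    · rw [hv', QuadraticMap.map_smul, hq, smul_zero]
    · rw [hw', QuadraticMap.map_smul, show polar q v z • w - polar q w z • v
        = (-polar q w z) • v - (-polar q v z) • w by module, hq, smul_zero]
    all_goals
      simp only [hv', hw', polar_smul_left, polar_smul_right, polar_sub_left, polar_sub_right, polar_self', hvv, hww,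
        hvw, polar_comm q w v, polar_comm q z v, polar_comm q z w, polar_comm q y v, polar_comm q y w,
        smul_eq_mul]
    all_goals first | ring1 | (refine Eq.trans ?_ (inv_mul_cancel₀ h0); rw [hδ] <;> ring1)
  set S := realised M P
  have hU : ∀ μ : F, ∀ A : Matrix.SpecialLinearGroup (Fin 2) F,
      (A : Matrix (Fin 2) (Fin 2) F) = !![1, 0; μ, 1] →
        (A ∈ S ↔ RootIn M z ((-μ) • y)) := by
    intro μ A hA
    have e : ∀ x, (eich q z ((-μ) • y) : V ≃ₗ[F] V) x = phi q z y v' w' (A : Matrix (Fin 2) (Fin 2) F) x := by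
      intro x
      rw [eich_line_apply hzz (by rw [QuadraticMap.map_smul, hyy, smul_zero]) (by rw [polar_smul_right, hzy, smul_zero]),
        hA]
      simp [phi, polar_smul_left, smul_smul]
      module
    constructor
    · rintro ⟨g, hg, hgA⟩
      refine ⟨hzz, by rw [polar_smul_right, hzy, smul_zero], ?_⟩
      rwa [show eich q z ((-μ) • y) = g from orth_ext fun x => by rw [e, hgA]]
    · exact fun h => ⟨_, h.2.2, e⟩
  have hL : ∀ A : Matrix.SpecialLinearGroup (Fin 2) F,
      (A : Matrix (Fin 2) (Fin 2) F) = !![1, δ; 0, 1] → A ∈ S := by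
    intro A hA
    refine ⟨_, hm.2.2, fun x => ?_⟩
    rw [eich_line_apply hvv hww hvw, hA]
    simp [phi, hv', hw', polar_smul_left, polar_sub_left, smul_smul]
    match_scalars <;> field_simp <;> rw [hδ] <;> ring
  let K : Subfield F := Subfield.closure {δ}
  let d : K := ⟨δ, Subfield.subset_closure rfl⟩
  have hd : Subfield.closure ({d} : Set K) = ⊤ := by
    refine eq_top_iff.mpr fun x _ => ?_
    have hle : K ≤ (Subfield.closure ({d} : Set K)).map K.subtype := Subfield.closure_le.mpr (by
      rintro _ rfl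
      exact ⟨d, Subfield.subset_closure rfl, rfl⟩)
    obtain ⟨x', hx', e⟩ := hle x.2
    rwa [← Subtype.ext e]
  haveI : Fintype K := Fintype.ofFinite K
  have h2' : (2 : K) ≠ 0 := fun h => h2 ((map_ofNat K.subtype 2).symm.trans ((congrArg K.subtype h).trans (map_zero _)))
  rcases Cfsg.Agent.S0801.result h2' d (fun h => h0 (congrArg Subtype.val h)) hd with ⟨htop, -⟩ | ⟨-, hsq, -⟩
  · let ψ : Matrix.SpecialLinearGroup (Fin 2) K →* Matrix.SpecialLinearGroup (Fin 2) F :=
      Matrix.SpecialLinearGroup.map K.subtype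
    have hle : (⊤ : Subgroup (Matrix.SpecialLinearGroup (Fin 2) K)) ≤ S.comap ψ := by
      rw [← htop, Subgroup.closure_le]
      rintro A (hA | hA)
      · have e : (ψ A : Matrix (Fin 2) (Fin 2) F) = !![1, 0; 1, 1] := by
          ext i j
          fin_cases i <;> fin_cases j <;> simp [ψ, hA]
        exact (hU 1 _ e).mpr (H.rootIn_rat hM hz (isRat_smul (neg_mem (one_mem F₀)) hy) hzz
          (by rw [polar_smul_right, hzy, smul_zero]))
      · refine hL _ ?_
        ext i j
        simp [ψ, hA]
        fin_cases i <;> fin_cases j <;> simp [d]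
    let B : Matrix.SpecialLinearGroup (Fin 2) K := ⟨!![1, 0; d, 1], by simp [Matrix.det_fin_two]⟩
    have hB : (ψ B : Matrix (Fin 2) (Fin 2) F) = !![1, 0; δ, 1] := by
      ext i j
      fin_cases i <;> fin_cases j <;> rfl
    have := hns z y hz hy hz0 hzz hyy hzy hyz (-δ) ((hU δ _ hB).mp (hle (Subgroup.mem_top B)))
    simpa using neg_mem this
  · refine H.mem_of_sq hr ?_
    have h := congrArg Subtype.val hsq
    simp only [d, SubmonoidClass.coe_pow] at h
    rw [← pow_two, h]
    simpa using neg_mem (one_mem F₀)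

/-- Odd characteristic: every element of the overgroup is rational up to a scalar. -/
theorem OR.subF_odd (h2 : (2 : F) ≠ 0) (hr : Odd r) {g : orth q} (hg : g ∈ M) : SubF F₀ g := by
  classical
  obtain ⟨a, b, ha, hb, haa, hbb, hab, ha0, hba, -, -⟩ := H.exists_line (Fin.elim0 : Fin 0 → V) (fun i => i.elim0)
    (by have := H.big; omega)
  set v := (g : V ≃ₗ[F] V) a with hv
  set w := (g : V ≃ₗ[F] V) b with hw
  have hvv : q v = 0 := by rw [hv, orth_map, haa]
  have hww : q w = 0 := by rw [hw, orth_map, hbb]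
  have hvw : polar q v w = 0 := by rw [hv, hw, orth_polar, hab]
  have hm : RootIn M v w := (H.rootIn_rat hM ha hb haa hab).conj hg
  set D : V → V → F := fun x y => polar q v x * polar q w y - polar q w x * polar q v y with hD
  have h0 := fun z y hz hy hzz hyy hzy =>
    H.pairing_mem hM hns h2 hr hvv hww hvw hm (z := z) (y := y) hz hy hzz hyy hzy
  have Dadd : ∀ x y y', D x (y + y') = D x y + D x y' := fun x y y' => by
    simp only [hD, polar_add_right]; ring
  have Dsmul : ∀ (k : F) x y, D x (k • y) = k * D x y := fun k x y => by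
    simp only [hD, polar_smul_right, smul_eq_mul]; ring
  have Dswap : ∀ x y, D x y = -D y x := fun x y => by simp only [hD]; ring
  have h1 : ∀ x y, IsRatVec F₀ x → IsRatVec F₀ y → q x = 0 → polar q x y = 0 → D x y ∈ F₀ := by
    intro x y hx hy hxx hxy
    refine H.rat_span ![x] (fun i => by fin_cases i; exact hx) (by have := H.big; omega) (p := fun y => D x y ∈ F₀)
      (fun u u' h h' => by rw [Dadd]; exact add_mem h h') (fun k hk u h => by rw [Dsmul]; exact mul_mem hk h) ?_ hy
      (fun i => by fin_cases i; simpa using hxy)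
    exact fun z hz hzz hzs => h0 x z hx hz hxx hzz (by simpa using hzs 0)
  have hpairs : ∀ e f, IsRatVec F₀ e → IsRatVec F₀ f → HypPair q e f → D e f ∈ F₀ := by
    intro e f he hf p
    obtain ⟨e', f', he', hf', p', es, fs⟩ := H.exists_pair ![e, f] (fun i => by fin_cases i <;> assumption)
      (by have := H.big; omega)
    have c1 : polar q e e' = 0 := by simpa using es 0
    have c2 : polar q f e' = 0 := by simpa using es 1
    have c3 : polar q e f' = 0 := by simpa using fs 0
    have c4 : polar q f f' = 0 := by simpa using fs 1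
    have k1 : D (e + e') (f - f') ∈ F₀ := h0 _ _ (isRat_add he he') (isRat_sub hf hf')
      (by rw [QuadraticMap.map_add (⇑q), p.left, p'.left, c1]; ring)
      (by rw [Cfsg.Agent.H5.map_sub', p.right, p'.right, c4]; ring)
      (by simp [polar_add_left, polar_sub_right, p.pair, p'.pair, c3, polar_comm q e' f, c2])
    have k2 : D (e + f') (f - e') ∈ F₀ := h0 _ _ (isRat_add he hf') (isRat_sub hf he')
      (by rw [QuadraticMap.map_add (⇑q), p.left, p'.right, c3]; ring)
      (by rw [Cfsg.Agent.H5.map_sub', p.right, p'.left, c2]; ring)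
      (by simp [polar_add_left, polar_sub_right, p.pair, p'.symm.pair, c1, polar_comm q f' f, c4])
    have a1 := h1 e f' he hf' p.left c3
    have a2 := h1 e e' he he' p.left c1
    have a3 := h1 f f' hf hf' p.right c4
    have a4 := h1 f e' hf he' p.right c2
    have hsum : 2 * D e f ∈ F₀ := by
      have := add_mem (add_mem (add_mem k1 k2) (add_mem a1 a2)) (add_mem a3 a4)
      convert this using 1
      simp only [hD, polar_add_right, polar_sub_right]
      ring
    have h2F : (2 : F) ∈ F₀ := by rw [← one_add_one_eq_two]; exact add_mem (one_mem F₀) (one_mem F₀)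
    have := mul_mem (inv_mem h2F) hsum
    rwa [inv_mul_cancel_left₀ h2] at this
  have h3 : ∀ x y, IsRatVec F₀ x → IsRatVec F₀ y → q x = 0 → D x y ∈ F₀ := by
    intro x y hx hy hxx
    rcases eq_or_ne x 0 with rfl | hx0
    · simp [hD]
    obtain ⟨x', hx', p⟩ := H.partner₁ hx hxx hx0
    have := add_mem (h1 x (y - polar q x y • x') hx (isRat_sub hy (isRat_smul (H.polar_rat hx hy) hx')) hxx
      (by rw [polar_sub_right, polar_smul_right, p.pair, smul_eq_mul, mul_one, sub_self]))
      (mul_mem (H.polar_rat hx hy) (hpairs x x' hx hx' p))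
    rwa [← Dsmul, ← Dadd, sub_add_cancel] at this
  have hall : ∀ x y, IsRatVec F₀ x → IsRatVec F₀ y → D x y ∈ F₀ := fun x y hx hy =>
    H.rat_span (Fin.elim0 : Fin 0 → V) (fun i => i.elim0) (by have := H.big; omega) (p := fun y => D x y ∈ F₀)
      (fun u u' h h' => by rw [Dadd]; exact add_mem h h') (fun k hk u h => by rw [Dsmul]; exact mul_mem hk h)
      (fun z hz hzz _ => by rw [Dswap]; exact neg_mem (h3 z x hz hx hzz)) hy (fun i => i.elim0)
  obtain ⟨x₁, x₂, hx₁, hx₂, hne⟩ : ∃ x₁ x₂, IsRatVec F₀ x₁ ∧ IsRatVec F₀ x₂ ∧ D x₁ x₂ ≠ 0 := by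
    by_contra hc
    push Not at hc
    obtain ⟨x, hx, hxv⟩ : ∃ x, IsRatVec F₀ x ∧ polar q v x ≠ 0 := by
      by_contra hc'
      push Not at hc'
      exact ha0 ((g : V ≃ₗ[F] V).map_eq_zero_iff.mp (H.eq_zero fun y hy => by rw [polar_comm]; exact hc' y hy))
    have h := H.eq_zero (w := polar q v x • w - polar q w x • v) fun y hy => by
      rw [polar_sub_right, polar_smul_right, polar_smul_right, smul_eq_mul, smul_eq_mul, polar_comm q y w,
        polar_comm q y v]
      exact hc x y hx hy
    rw [hv, hw, ← map_smul, ← map_smul, ← map_sub, LinearEquiv.map_eq_zero_iff, sub_eq_zero] at h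
    refine hba (Submodule.mem_span_singleton.mpr ⟨(polar q v x)⁻¹ * polar q w x, ?_⟩)
    rw [mul_smul, ← h, smul_smul, inv_mul_cancel₀ hxv, one_smul]
  set u := (D x₁ x₂)⁻¹ • (polar q w x₂ • v - polar q v x₂ • w) with hu
  have hur : IsRatVec F₀ u := H.rat_of_polar fun y hy => by
    have := mul_mem (inv_mem (hall x₁ x₂ hx₁ hx₂)) (hall y x₂ hy hx₂)
    convert this using 1
    simp only [hu, hD, polar_smul_right, polar_sub_right, smul_eq_mul, polar_comm q y v, polar_comm q y w]
    ring
  have hu0 : u ≠ 0 := fun h => one_ne_zero (α := F) (by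
    have := congrArg (fun t => polar q t x₁) h
    simp only [hu, polar_smul_left, polar_sub_left, polar_zero_left, smul_eq_mul] at this
    rw [show polar q w x₂ * polar q v x₁ - polar q v x₂ * polar q w x₁ = D x₁ x₂ by simp only [hD]; ring,
      inv_mul_cancel₀ hne] at this
    exact this)
  refine H.criterion hM hns hg ha hb haa hbb hab ha0 hba hur hu0 ?_ ?_ ?_
  · simp [hu, QuadraticMap.map_smul, Cfsg.Agent.H5.map_sub', polar_smul_left, polar_smul_right, hvv, hww, hvw]
  all_goals
    rw [← hv] at * <;> simp [hu, ← hv, ← hw, polar_smul_left, polar_sub_left, polar_self', hvv, hww, hvw, polar_comm q w v]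

end Cfsg.Agent.H76.O8
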