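import Cfsg.Agent.H76.O8.OrthSubBase

set_option autoImplicit false
set_option linter.unusedSectionVars false

/-!
A root element with a new scalar generates `Ω`; otherwise parameters of rational root elements are rational.
-/

namespace Cfsg.Agent.H76.O8

open Cfsg.Agent.H98

open Cfsg.Agent.H5 QuadraticMap

variable {ι : Type} [Fintype ι] [DecidableEq ι] {F : Type*} [Field F] [Finite F]

local notation "V" => (ι → F)

variable {q : QuadraticForm F (ι → F)} {F₀ : Subfield F} {r : ℕ}

/-- The subgroup contains the rational elements of `Ω`. -/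
def Over (F₀ : Subfield F) (M : Subgroup (orth q)) : Prop :=
  ∀ g ∈ commutator (orth q), RatMap F₀ g → g ∈ M

/-- No root element of a rational line has a scalar outside the subfield. -/
def NoNew (F₀ : Subfield F) (M : Subgroup (orth q)) : Prop :=
  ∀ e a : ι → F, IsRatVec F₀ e → IsRatVec F₀ a → e ≠ 0 → q e = 0 → q a = 0 → polar q e a = 0 →
    a ∉ Submodule.span F {e} → ∀ c : F, RootIn M e (c • a) → c ∈ F₀

/-- A new scalar is carried by all rational lines. -/
def AllLines (F₀ : Subfield F) (M : Subgroup (orth q)) (c : F) : Prop :=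
  ∀ x y : ι → F, IsRatVec F₀ x → IsRatVec F₀ y → q x = 0 → q y = 0 → polar q x y = 0 → RootIn M x (c • y)

theorem rootIn_zero {M : Subgroup (orth q)} {x : V} (hx : q x = 0) : RootIn M x 0 :=
  ⟨hx, polar_zero_right q x, by rw [eich_zero]; exact M.one_mem⟩

theorem rootIn_self {M : Subgroup (orth q)} {x : V} (hx : q x = 0) (t : F) : RootIn M x (t • x) := by
  have := SingPair.rootIn_add_smul (rootIn_zero (M := M) hx) t
  rwa [zero_add] at this

variable (H : OR q F₀ r)
include H

theorem OR.finrank_V : 5 ≤ Module.finrank F (ι → F) := by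
  rw [Module.finrank_pi]; have := H.big; omega

theorem OR.eich_comm_mem (e a : V) : eich q e a ∈ commutator (orth q) := by
  haveI : Finite (ι → F) := Pi.finite
  exact eich_mem_commutator H.nondeg H.finrank_V e a

variable {M : Subgroup (orth q)} (hM : Over F₀ M)
include hM

theorem OR.rootIn_rat {e a : V} (he : IsRatVec F₀ e) (ha : IsRatVec F₀ a) (h1 : q e = 0) (h2 : polar q e a = 0) :
    RootIn M e a :=
  ⟨h1, h2, hM _ (H.eich_comm_mem e a) (H.ratMap_eich he ha)⟩

/-- Moving the second vector of a root element. -/
theorem OR.sideways {e a b : V} (he : IsRatVec F₀ e) (ha : IsRatVec F₀ a) (hb : IsRatVec F₀ b)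
    (hbb : q b = 0) (hea : polar q e a = 0) (heb : polar q e b = 0) (hab : polar q a b = 0)
    (hni : a ∉ Submodule.span F ({e, b} : Set V)) {c : F} (h : RootIn M e (c • a)) : RootIn M e (c • b) := by
  obtain ⟨φ, h1, h2⟩ := exists_functional_rat H (s := ![e, b]) (fun i => by fin_cases i <;> assumption) ha
    (by simpa [Set.pair_comm] using hni)
  obtain ⟨d, hd, hdv⟩ := H.exists_rep (-φ)
  have hneg : ∀ x, extF (-φ) x = -extF φ x := fun x => by simp [extF]
  have hde : polar q d e = 0 := by rw [hdv, hneg, show extF φ e = 0 from h2 0, neg_zero]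
  have hdb : polar q d b = 0 := by rw [hdv, hneg, show extF φ b = 0 from h2 1, neg_zero]
  have hda : polar q d a = -1 := by rw [hdv, hneg, h1]
  have hbd : polar q b d = 0 := by rw [polar_comm, hdb]
  have h3 := h.conj (hM _ (H.eich_comm_mem b d) (H.ratMap_eich hb hd))
  rw [eich_apply hbb hbd, eich_apply hbb hbd, polar_smul_right, polar_smul_right, polar_comm q b e, heb,
    polar_comm q b a, hab, hde, hda] at h3
  simp only [smul_zero, zero_smul, mul_zero, add_zero, sub_zero, smul_eq_mul, mul_neg, mul_one, neg_smul,
    sub_neg_eq_add] at h3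
  have := h3.sub h
  rwa [add_sub_cancel_left] at this

/-- One vector with a scalar gives all lines through it. -/
theorem OR.lines_through {e a : V} (he : IsRatVec F₀ e) (ha : IsRatVec F₀ a) (hee : q e = 0) (he0 : e ≠ 0)
    (haa : q a = 0) (hea : polar q e a = 0) (hae : a ∉ Submodule.span F {e}) {c : F} (h : RootIn M e (c • a))
    {b : V} (hb : IsRatVec F₀ b) (hbb : q b = 0) (heb : polar q e b = 0) : RootIn M e (c • b) := by
  by_cases hbe : b ∈ Submodule.span F {e}
  · obtain ⟨t, rfl⟩ := Submodule.mem_span_singleton.mp hbe
    rw [smul_smul]; exact rootIn_self hee _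
  by_cases hab : polar q a b = 0
  · by_cases hm : a ∈ Submodule.span F ({e, b} : Set V)
    swap
    · exact H.sideways hM he ha hb hbb hea heb hab hm h
    obtain ⟨s, t, e1⟩ := Submodule.mem_span_pair.mp hm
    have ht : t ≠ 0 := by
      rintro rfl
      exact hae (Submodule.mem_span_singleton.mpr ⟨s, by rw [← e1, zero_smul, add_zero]⟩)
    obtain ⟨z, hz, hzz, -, hzs, hzn⟩ := H.exists_sing ![e, a] (fun i => by fin_cases i <;> assumption) ![e, a]
      (fun i => by fin_cases i <;> assumption) (by have := H.big; omega)
    have hrange : Set.range ![e, a] = ({e, a} : Set V) := by simp [Set.pair_comm]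
    rw [hrange] at hzn
    have hez : polar q e z = 0 := by simpa using hzs 0
    have haz : polar q a z = 0 := by simpa using hzs 1
    have hb' : b = (-(t⁻¹ * s)) • e + t⁻¹ • a := by
      rw [← e1, smul_add, smul_smul, smul_smul, inv_mul_cancel₀ ht, one_smul]; module
    have hzb : polar q z b = 0 := by
      rw [hb', polar_add_right, polar_smul_right, polar_smul_right, polar_comm q z e, hez, polar_comm q z a, haz]
      simp
    have h1 : a ∉ Submodule.span F ({e, z} : Set V) := fun hm => by
      obtain ⟨u, w, e2⟩ := Submodule.mem_span_pair.mp hm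
      rcases eq_or_ne w 0 with rfl | hw
      · exact hae (Submodule.mem_span_singleton.mpr ⟨u, by rw [← e2, zero_smul, add_zero]⟩)
      · refine hzn ?_
        have e3 : z = w⁻¹ • a + (-(w⁻¹ * u)) • e := by
          rw [← e2, smul_add, smul_smul, smul_smul, inv_mul_cancel₀ hw, one_smul]; module
        rw [e3]
        exact add_mem (Submodule.smul_mem _ _ (Submodule.subset_span (by simp)))
          (Submodule.smul_mem _ _ (Submodule.subset_span (by simp)))
    have h2 : z ∉ Submodule.span F ({e, b} : Set V) := fun hm => by
      obtain ⟨u, w, e2⟩ := Submodule.mem_span_pair.mp hm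
      refine hzn ?_
      rw [← e2, hb', smul_add, smul_smul, smul_smul]
      exact add_mem (Submodule.smul_mem _ _ (Submodule.subset_span (by simp)))
        (add_mem (Submodule.smul_mem _ _ (Submodule.subset_span (by simp)))
          (Submodule.smul_mem _ _ (Submodule.subset_span (by simp))))
    exact H.sideways hM he hz hb hbb hez heb hzb h2 (H.sideways hM he ha hz hzz hea hez haz h1 h)
  · obtain ⟨z, hz, hzz, -, hzs, hzn⟩ := H.exists_sing ![e, a, b] (fun i => by fin_cases i <;> assumption) ![e]
      (fun i => by fin_cases i; exact he) (by have := H.big; omega)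
    have hrange : Set.range ![e] = ({e} : Set V) := by simp
    rw [hrange] at hzn
    have hez : polar q e z = 0 := by simpa using hzs 0
    have haz : polar q a z = 0 := by simpa using hzs 1
    have hbz : polar q b z = 0 := by simpa using hzs 2
    have h1 : a ∉ Submodule.span F ({e, z} : Set V) := fun hm => by
      obtain ⟨u, w, e2⟩ := Submodule.mem_span_pair.mp hm
      refine hab ?_
      rw [← e2, polar_add_left, polar_smul_left, polar_smul_left, heb, polar_comm q z b, hbz]
      simp
    have h2 : z ∉ Submodule.span F ({e, b} : Set V) := fun hm => by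
      obtain ⟨u, w, e2⟩ := Submodule.mem_span_pair.mp hm
      have hw : w = 0 := by
        have h0 : polar q a (u • e + w • b) = 0 := by rw [e2, haz]
        rw [polar_add_right, polar_smul_right, polar_smul_right, polar_comm q a e, hea] at h0
        simpa [hab] using h0
      exact hzn (Submodule.mem_span_singleton.mpr ⟨u, by rw [← e2, hw, zero_smul, add_zero]⟩)
    exact H.sideways hM he hz hb hbb hez heb (by rw [polar_comm, hbz]) h2
      (H.sideways hM he ha hz hzz hea hez haz h1 h)

omit hM in
theorem OR.swap {x y : V} {c : F} (hyy : q y = 0) (h : RootIn M x (c • y)) : RootIn M y (c • x) := by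
  rcases eq_or_ne c 0 with rfl | hc
  · rw [zero_smul]; exact rootIn_zero hyy
  have h1 := ((SingPair.rootIn_symm h (by rw [QuadraticMap.map_smul, hyy, smul_zero])).smul_left hc).neg
  rwa [smul_neg, neg_neg] at h1

/-- A scalar on one rational line is on all of them. -/
theorem OR.allLines {e a : V} (he : IsRatVec F₀ e) (ha : IsRatVec F₀ a) (he0 : e ≠ 0) (hee : q e = 0)
    (haa : q a = 0) (hea : polar q e a = 0) (hae : a ∉ Submodule.span F {e}) {c : F} (h : RootIn M e (c • a)) :
    AllLines F₀ M c := by
  intro x y hx hy hxx hyy hxy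
  rcases eq_or_ne x 0 with rfl | hx0
  · refine ⟨QuadraticMap.map_zero q, polar_zero_left q _, ?_⟩
    convert M.one_mem
    exact orth_ext fun v => by rw [eich_apply (QuadraticMap.map_zero q) (polar_zero_left q _)]; simp
  obtain ⟨b, hb, hbb, hb0, hbs, hbn⟩ := H.exists_sing ![e, x] (fun i => by fin_cases i <;> assumption) ![e, x]
    (fun i => by fin_cases i <;> assumption) (by have := H.big; omega)
  have hrange : Set.range ![e, x] = ({e, x} : Set V) := by simp [Set.pair_comm]
  rw [hrange] at hbn
  have ind : ∀ w : V, w ≠ 0 → w ∈ ({e, x} : Set V) → w ∉ Submodule.span F {b} ∧ b ∉ Submodule.span F {w} := by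
    intro w hw0 hw
    refine ⟨fun hm => ?_, fun hm => hbn (Submodule.span_mono (Set.singleton_subset_iff.mpr hw) hm)⟩
    obtain ⟨t, rfl⟩ := Submodule.mem_span_singleton.mp hm
    have ht : t ≠ 0 := fun h => hw0 (by rw [h, zero_smul])
    exact hbn ((Submodule.smul_mem_iff _ ht).mp (Submodule.subset_span hw))
  have hbe : polar q b e = 0 := by rw [polar_comm]; simpa using hbs 0
  have hbx : polar q b x = 0 := by rw [polar_comm]; simpa using hbs 1
  have h1 := H.swap hbb (H.lines_through hM he ha hee he0 haa hea hae h hb hbb (by rw [polar_comm, hbe]))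
  have h2 := H.lines_through hM hb he hbb hb0 hee hbe (ind e he0 (by simp)).1 h1 hx hxx hbx
  exact H.lines_through hM hx hb hxx hx0 hbb (by rw [polar_comm, hbx]) (ind x hx0 (by simp)).2
    (H.swap hxx h2) hy hyy hxy

/-- A root element of a rational line with a new scalar generates `Ω`. -/
theorem OR.le_of_new {e a : V} (he : IsRatVec F₀ e) (ha : IsRatVec F₀ a) (he0 : e ≠ 0) (hee : q e = 0)
    (haa : q a = 0) (hea : polar q e a = 0) (hae : a ∉ Submodule.span F {e}) {c : F} (hc : c ∉ F₀)
    (h : RootIn M e (c • a)) : commutator (orth q) ≤ M := by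
  haveI : Finite (ι → F) := Pi.finite
  let Lam : Subalgebra F₀ F :=
    { carrier := {d | AllLines F₀ M d}
      mul_mem' := fun {d d'} hd hd' x y hx hy hxx hyy hxy => by
        obtain ⟨p, p', hp, hp', hpp, hps, hp's⟩ := H.exists_pair ![x, y] (fun i => by fin_cases i <;> assumption)
          (by have := H.big; omega)
        have p0 : polar q p' x = 0 := by rw [polar_comm]; simpa using hp's 0
        have p1 : polar q p' y = 0 := by rw [polar_comm]; simpa using hp's 1
        have p2 : polar q x p = 0 := by simpa using hps 0
        have hy0 : polar q y p = 0 := by simpa using hps 1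
        have hp'p : polar q p' p = 1 := hpp.symm.pair
        have hroot := hd' p' x hp' hx hpp.right hxx p0
        have h1 := (hd y p hy hp hyy hpp.left hy0).conj hroot.2.2
        rw [eich_apply hroot.1 hroot.2.1, eich_apply hroot.1 hroot.2.1, polar_smul_right, polar_smul_right,
          polar_smul_left, polar_smul_left, p1, hp'p, hxy, p2, QuadraticMap.map_smul, hxx] at h1
        simp only [smul_zero, zero_smul, mul_zero, zero_mul, add_zero, sub_zero, smul_eq_mul, mul_one,
          smul_smul] at h1
        have h2 := h1.sub (hd y p hy hp hyy hpp.left hy0)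
        rw [add_sub_cancel_left] at h2
        exact H.swap hxx h2
      add_mem' := fun {d d'} hd hd' x y hx hy hxx hyy hxy => by
        rw [add_smul]; exact (hd x y hx hy hxx hyy hxy).add (hd' x y hx hy hxx hyy hxy)
      algebraMap_mem' := fun d x y hx hy hxx _ hxy =>
        H.rootIn_rat hM hx (isRat_smul d.2 hy) hxx (by rw [polar_smul_right, hxy, smul_zero]) }
  have htop : Lam = ⊤ := by
    let K : IntermediateField F₀ F := Lam.toIntermediateField' (Subalgebra.isField_of_algebraic Lam)
    haveI := IntermediateField.isSimpleOrder_of_finrank_prime F₀ F (H.finrank_dim ▸ H.prime)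
    rcases eq_bot_or_eq_top K with hK | hK
    · exfalso
      have hcK : c ∈ K := (show AllLines F₀ M c from H.allLines hM he ha he0 hee haa hea hae h)
      rw [hK, IntermediateField.mem_bot] at hcK
      obtain ⟨d, hd⟩ := hcK
      exact hc (hd ▸ d.2)
    · exact eq_top_iff.mpr fun d _ => show d ∈ K from hK ▸ IntermediateField.mem_top
  have hall : ∀ d, AllLines F₀ M d := fun d => show d ∈ Lam from htop ▸ Algebra.mem_top
  have hfull : ∀ x, IsRatVec F₀ x → q x = 0 → x ≠ 0 → FullRoot M x := by
    intro x hx hxx hx0
    let S : Submodule F (ι → F) :=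
      { carrier := {v | ∀ d : F, RootIn M x (d • v)}
        add_mem' := fun hu hv d => by rw [smul_add]; exact (hu d).add (hv d)
        zero_mem' := fun d => by rw [smul_zero]; exact rootIn_zero hxx
        smul_mem' := fun k v hv d => by rw [smul_smul]; exact hv _ }
    have hS : ∀ v, IsRatVec F₀ v → polar q x v = 0 → v ∈ S := fun v hv hxv =>
      H.rat_span ![x] (fun i => by fin_cases i; exact hx) (by have := H.big; omega) (p := fun v => v ∈ S)
        (fun _ _ => S.add_mem) (fun k _ _ => S.smul_mem k)
        (fun z hz hzz hzs d => hall d x z hx hz hxx hzz (by simpa using hzs 0)) hv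
        (fun i => by fin_cases i; simpa using hxv)
    refine ⟨hxx, fun v hv => ?_⟩
    obtain ⟨x', hx', hp⟩ := H.partner₁ hx hxx hx0
    have hvS : v ∈ S := by
      have e1 : v = ∑ i, v i • (Pi.single i 1 - polar q x (Pi.single i 1) • x') := by
        simp only [smul_sub, Finset.sum_sub_distrib, smul_smul, ← Finset.sum_smul]
        rw [← pi_eq_sum_univ' v]
        have : ∑ i, v i * polar q x (Pi.single i 1) = 0 := by
          rw [← hv]
          conv_rhs => rw [← polarBilin_apply_apply, pi_eq_sum_univ' v, map_sum]
          exact Finset.sum_congr rfl fun i _ => by rw [map_smul, smul_eq_mul, polarBilin_apply_apply]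
        rw [this, zero_smul, sub_zero]
      rw [e1]
      refine S.sum_mem fun i _ => S.smul_mem _ (hS _ (isRat_sub (isRat_single i)
        (isRat_smul (H.polar_rat hx (isRat_single i)) hx')) ?_)
      rw [polar_sub_right, polar_smul_right, hp.pair, smul_eq_mul, mul_one, sub_self]
    have := (hvS 1).2.2
    rwa [one_smul] at this
  obtain ⟨e', he', hp⟩ := H.partner₁ he hee he0
  exact commutator_le_of_fullRoot H.nondeg H.finrank_V (hfull e he hee he0)
    (hfull e' he' hp.right hp.symm.ne_zero) (by rw [hp.pair]; exact one_ne_zero)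

variable (hns : NoNew F₀ M)
include hns

/-- The parameter of a root element at a rational point pairs rationally with rational vectors orthogonal to it. -/
theorem OR.param {z X : V} (hz : IsRatVec F₀ z) (hz0 : z ≠ 0) (hX : RootIn M z X) {b : V}
    (hb : IsRatVec F₀ b) (hzb : polar q z b = 0) : polar q b X ∈ F₀ := by
  have hzz := hX.1
  refine H.rat_span ![z] (fun i => by fin_cases i; exact hz) (by have := H.big; omega)
    (p := fun b => polar q b X ∈ F₀) (fun a a' h h' => by rw [polar_add_left]; exact add_mem h h')
    (fun k hk a h => by rw [polar_smul_left]; exact mul_mem hk h) ?_ hb (fun i => by fin_cases i; simpa using hzb)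
  intro b hb hbb hzb'
  have hzb : polar q z b = 0 := by simpa using hzb' 0
  by_cases hbz : b ∈ Submodule.span F {z}
  · obtain ⟨t, rfl⟩ := Submodule.mem_span_singleton.mp hbz
    rw [polar_smul_left, hX.2.1, smul_zero]; exact zero_mem _
  obtain ⟨c, hc, hcc, -, hcs, hcn⟩ := H.exists_sing ![z, b] (fun i => by fin_cases i <;> assumption) ![z, b]
    (fun i => by fin_cases i <;> assumption) (by have := H.big; omega)
  obtain ⟨d, hd, hdd, hcd, hds⟩ := H.partner (s := ![z, b]) (fun i => by fin_cases i <;> assumption) hc hcc hcs hcn
  obtain ⟨e, he, hee, -, hes, hen⟩ := H.exists_sing ![z, b, c, d] (fun i => by fin_cases i <;> assumption) ![z]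
    (fun i => by fin_cases i; exact hz) (by have := H.big; omega)
  have czero : polar q z c = 0 := by simpa using hcs 0
  have cb : polar q b c = 0 := by simpa using hcs 1
  have dz : polar q z d = 0 := by simpa using hds 0
  have db : polar q b d = 0 := by simpa using hds 1
  have ez : polar q z e = 0 := by simpa using hes 0
  have eb : polar q b e = 0 := by simpa using hes 1
  have ec : polar q c e = 0 := by simpa using hes 2
  have ed : polar q d e = 0 := by simpa using hes 3
  have hdc : polar q d c = 1 := by rw [polar_comm, hcd]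
  have hsub := (hX.conj (hM _ (H.eich_comm_mem b c) (H.ratMap_eich hb hc))).sub
    (by convert hX using 1; rw [eich_apply hbb cb, polar_comm q b z, hzb, polar_comm q c z, czero]; simp)
  rw [eich_apply hbb cb, eich_apply hbb cb, polar_comm q b z, hzb, polar_comm q c z, czero, hcc] at hsub
  simp only [zero_smul, zero_mul, mul_zero, add_zero, sub_zero] at hsub
  rw [show X + polar q b X • c - polar q c X • b - X = polar q b X • c - polar q c X • b by abel] at hsub
  have hsub2 := (hsub.conj (hM _ (H.eich_comm_mem d e) (H.ratMap_eich hd he))).sub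
    (by convert hsub using 1; rw [eich_apply hdd ed, polar_comm q d z, dz, polar_comm q e z, ez]; simp)
  rw [eich_apply hdd ed, eich_apply hdd ed] at hsub2
  simp only [polar_sub_right, polar_smul_right, polar_comm q d z, dz, polar_comm q e z, ez, polar_comm q d b, db,
    polar_comm q e b, eb, polar_comm q e c, ec, hdc, hee, smul_eq_mul, mul_zero, mul_one, zero_mul, zero_smul,
    sub_zero, add_zero, add_sub_cancel_left] at hsub2
  exact hns z e hz he hz0 hzz hee ez (by simpa using hen) _ hsub2

/-- The parameter of a root element at a rational point is rational modulo the point. -/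
theorem OR.param_rat {z X : V} (hz : IsRatVec F₀ z) (hz0 : z ≠ 0) (hX : RootIn M z X) :
    ∃ t : F, IsRatVec F₀ (X - t • z) := by
  obtain ⟨z', hz', hp⟩ := H.partner₁ hz hX.1 hz0
  refine ⟨polar q z' X, H.rat_of_polar fun y hy => ?_⟩
  have h1 := H.param hM hns hz hz0 hX (b := y - polar q z y • z')
    (isRat_sub hy (isRat_smul (H.polar_rat hz hy) hz'))
    (by rw [polar_sub_right, polar_smul_right, hp.pair, smul_eq_mul, mul_one, sub_self])
  rw [polar_sub_left, polar_smul_left, smul_eq_mul] at h1
  rw [polar_sub_right, polar_smul_right, smul_eq_mul, polar_comm q y z]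
  convert h1 using 1
  ring

end Cfsg.Agent.H76.O8
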